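import Cfsg.Agent.Lib.Chev.Cells
import Cfsg.Agent.Lib.Chev.RankOne

/-!
# Involutions in Chevalley groups over fields of odd order

Every involution is conjugate to an involution of the monomial subgroup `N`, and the basic
reductions inside `N`.
-/

namespace Cfsg.Agent.Lib.Chev

open Cfsg.Lie Matrix Equiv
open Cfsg.Agent.Lib.Chev.Tri
open Cfsg.Agent.Lib.Chev.SL2 (x0 y0 D0 n0 ext4 mem_closure_elementary)

variable {F : Type*} [Field F]
variable {T : Tabs} {X : Extra} {R : RootTab} {D : ChevalleyDatum} (hF : Full T X R D)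

namespace Full

include hF

/-- A conjugate of an element of `U` by `N` which is in `U H` has trivial `H`-part. -/
theorem conj_U_eq {n u u' k : GL D.Idx F} (_hn : n ∈ D.monomialSubgroup F) (hu : u ∈ D.posUnipotent F)
    (hu' : u' ∈ D.posUnipotent F) (hk : k ∈ D.diagonalSubgroup F) (hz : n * u * n⁻¹ = u' * k) : k = 1 := by
  set z := n * u * n⁻¹ with hzdef
  have hzpow : (((z : GL D.Idx F) : Matrix D.Idx D.Idx F) - 1) ^ (D.rank + D.nroots) = 0 := by
    have h4 : ((z : GL D.Idx F) : Matrix D.Idx D.Idx F) - 1 =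
        (n : Matrix D.Idx D.Idx F) * ((u : Matrix D.Idx D.Idx F) - 1) *
          ((n⁻¹ : GL D.Idx F) : Matrix D.Idx D.Idx F) := by
      rw [hzdef]
      simp only [Units.val_mul]
      rw [mul_sub, sub_mul, mul_one]
      simp
    rw [h4, Units.conj_pow, hF.pow_sub_one_eq_zero hu]
    simp
  have hu'T := hF.posUnipotent_le_UT hu'
  have hkT := hF.diagonal_le_Tri (lev R D) hk
  have hzT : z ∈ Tri (F := F) (lev R D) := by
    rw [hz]
    exact Subgroup.mul_mem _ (hF.posUnipotent_le_Tri hu') hkT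
  have hz1 : ((z : GL D.Idx F) : Matrix D.Idx D.Idx F) - 1 ∈ J (lev R D) 0 := J_sub hzT J_one_mem_zero
  have hdiag : ∀ (m : ℕ) (a : D.Idx), (((z : GL D.Idx F) : Matrix D.Idx D.Idx F) - 1) ^ m ∈ J (lev R D) 0 ∧
      ((((z : GL D.Idx F) : Matrix D.Idx D.Idx F) - 1) ^ m) a a =
        (((z : GL D.Idx F) : Matrix D.Idx D.Idx F) a a - 1) ^ m := by
    intro m a
    have hm : (((z : GL D.Idx F) : Matrix D.Idx D.Idx F) - 1) ^ m ∈ J (lev R D) 0 := by
      simpa using J_pow hz1 m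
    refine ⟨hm, ?_⟩
    induction m with
    | zero => simp
    | succ m ih =>
      have hm' : (((z : GL D.Idx F) : Matrix D.Idx D.Idx F) - 1) ^ m ∈ J (lev R D) 0 := by
        simpa using J_pow hz1 m
      rw [pow_succ, J_mul_diag hF.lev_injective hm' hz1, ih hm', pow_succ]
      simp [Matrix.sub_apply]
  have hza : ∀ a, ((z : GL D.Idx F) : Matrix D.Idx D.Idx F) a a = 1 := by
    intro a
    have h5 := (hdiag (D.rank + D.nroots) a).2
    rw [hzpow] at h5
    have h6 : (((z : GL D.Idx F) : Matrix D.Idx D.Idx F) a a - 1) ^ (D.rank + D.nroots) = 0 := h5.symm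
    have hne : D.rank + D.nroots ≠ 0 := by
      have := hF.lev_lt a
      omega
    exact sub_eq_zero.1 ((pow_eq_zero_iff hne).1 h6)
  have hka : ∀ a, (k : Matrix D.Idx D.Idx F) a a = 1 := by
    intro a
    have h5 := hza a
    rw [hz, Units.val_mul, J_mul_diag hF.lev_injective
      (UT_le_Tri (hd := hF.lev_lt) hu'T) hkT] at h5
    have h6 : ((u' : Matrix D.Idx D.Idx F) - 1) a a = 0 := by
      have := (mem_UT.1 hu'T) a a (by omega)
      exact this
    have h7 : (u' : Matrix D.Idx D.Idx F) a a = 1 := by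
      simpa [Matrix.sub_apply, sub_eq_zero] using h6
    rw [h7, one_mul] at h5
    exact h5
  obtain ⟨c, hc'⟩ := (hF.mem_diagonal_iff).1 hk
  rw [hc', hF.tor_eq, diagG_eq_one_iff]
  intro s hs
  have h5 := hka (Sum.inr ⟨s, hs⟩)
  rw [hc', hF.tor_eq, coe_diagG, Matrix.diagonal_apply_eq] at h5
  apply Units.ext
  simpa using h5

/-- Elements of `U` have odd order when the field has odd order; existence of square roots. -/
theorem exists_sqrt_U [Fintype F] (hodd : Odd (Fintype.card F)) {v : GL D.Idx F} (hv : v ∈ D.posUnipotent F) :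
    ∃ k : ℕ, (v ^ k) * (v ^ k) = v := by
  have h1 : Nat.card (D.posUnipotent F) = Fintype.card F ^ R.N := hF.card_U_fintype
  have h2 : Odd (Nat.card (D.posUnipotent F)) := by
    rw [h1]
    exact hodd.pow
  obtain ⟨m, hm⟩ := h2
  refine ⟨m + 1, ?_⟩
  have h3 : (⟨v, hv⟩ : ↥(D.posUnipotent F)) ^ (2 * m + 1) = 1 := by
    rw [← hm]
    exact pow_card_eq_one'
  have h4 : v ^ (2 * m + 1) = 1 := by
    have := congrArg Subtype.val h3
    simpa using this
  rw [← pow_add, show m + 1 + (m + 1) = (2 * m + 1) + 1 by ring, pow_succ, h4, one_mul]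

/-- Every involution is conjugate to an involution of `N`. -/
theorem inv_conj_mono [Fintype F] (hodd : Odd (Fintype.card F)) {t : GL D.Idx F} (ht : t ∈ D.group F)
    (h2 : t * t = 1) :
    ∃ g ∈ D.group F, ∃ n ∈ D.monomialSubgroup F, n * n = 1 ∧ g * t * g⁻¹ = n := by
  classical
  obtain ⟨n₀, hn₀, hgn⟩ := Cfsg.Agent.Lib.BNPair.exists_mem_dc (P := hF.bnPair F) ⟨t, ht⟩
  obtain ⟨b₁, hb₁, b₂, hb₂, e⟩ := Cfsg.Agent.Lib.BNPair.mem_dc.1 hgn
  have hb₁' : b₁.1 ∈ D.borelSubgroup F := Subgroup.mem_subgroupOf.1 hb₁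
  have hb₂' : b₂.1 ∈ D.borelSubgroup F := Subgroup.mem_subgroupOf.1 hb₂
  have hn₀' : n₀.1 ∈ D.monomialSubgroup F := Subgroup.mem_subgroupOf.1 hn₀
  have e1 : t = b₁.1 * n₀.1 * b₂.1 := congrArg Subtype.val e
  obtain ⟨u₁, hu₁, h₁, hh₁, e₁⟩ := (hF.mem_borel_iff).1 hb₁'
  obtain ⟨u₂, hu₂, h₂, hh₂, e₂⟩ := (hF.mem_borel_iff).1 hb₂'
  have hHN : D.diagonalSubgroup F ≤ D.monomialSubgroup F := by
    rw [hF.monomial_eq]
    exact le_sup_left
  have hU := hF.c.posUnipotent_le_borel (F := F)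
  have hle := hF.c.borel_le_group (F := F)
  have hle' := hF.c.monomial_le_group (F := F)
  -- move `h₂` to the left of `u₂`
  have hnorm := hF.diagonal_le_normalizer_U (F := F) (Subgroup.inv_mem _ hh₂)
  have hu₂' : h₂⁻¹ * u₂ * h₂ ∈ D.posUnipotent F := by
    have := (Subgroup.mem_set_normalizer_iff.1 hnorm u₂).1 hu₂
    simpa using this
  set n := h₁ * n₀.1 * h₂ with hn
  have hnN : n ∈ D.monomialSubgroup F :=
    Subgroup.mul_mem _ (Subgroup.mul_mem _ (hHN hh₁) hn₀') (hHN hh₂)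
  set v := (h₂⁻¹ * u₂ * h₂) * u₁ with hv
  have hvU : v ∈ D.posUnipotent F := Subgroup.mul_mem _ hu₂' hu₁
  have e3 : u₁⁻¹ * t * u₁ = n * v := by
    rw [e1, e₁, e₂, hn, hv]
    group
  have hsq : (n * v) * (n * v) = 1 := by
    rw [← e3]
    calc u₁⁻¹ * t * u₁ * (u₁⁻¹ * t * u₁) = u₁⁻¹ * (t * t) * u₁ := by group
      _ = 1 := by rw [h2]; group
  -- `n²` lies in `H`
  have hcell1 : n * v ∈ cellS D F n := ⟨1, Subgroup.one_mem _, v, hU hvU, by simp⟩
  have hcell2 : n * v ∈ cellS D F n⁻¹ := by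
    have h3 : n * v = (n * v)⁻¹ := by
      rw [eq_inv_iff_mul_eq_one]
      exact hsq
    rw [h3]
    exact ⟨v⁻¹, Subgroup.inv_mem _ (hU hvU), 1, Subgroup.one_mem _, by simp⟩
  have hk0 := hF.cell_disjoint hnN (Subgroup.inv_mem _ hnN) hcell1 hcell2
  have hkH : n⁻¹ * n⁻¹ ∈ D.diagonalSubgroup F := by
    rw [← hF.B_inf_N]
    exact ⟨hk0, Subgroup.mul_mem _ (Subgroup.inv_mem _ hnN) (Subgroup.inv_mem _ hnN)⟩
  have hz : n * v * n⁻¹ = v⁻¹ * (n⁻¹ * n⁻¹) := by
    have h3 : n * v * n = v⁻¹ := by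
      rw [eq_inv_iff_mul_eq_one]
      calc n * v * n * v = (n * v) * (n * v) := by group
        _ = 1 := hsq
    calc n * v * n⁻¹ = (n * v * n) * (n⁻¹ * n⁻¹) := by group
      _ = _ := by rw [h3]
  have hk1 := hF.conj_U_eq hnN hvU (Subgroup.inv_mem _ hvU) hkH hz
  have hnn : n * n = 1 := by
    have h3 : (n * n)⁻¹ = 1 := by
      rw [_root_.mul_inv_rev]
      exact hk1
    exact inv_eq_one.1 h3
  have hninv : n⁻¹ = n := by
    rw [inv_eq_iff_mul_eq_one]
    exact hnn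
  have hz' : n * v * n⁻¹ = v⁻¹ := by
    rw [hz, hk1, mul_one]
  obtain ⟨k, hk⟩ := hF.exists_sqrt_U hodd hvU
  set y := v ^ k with hy
  have hyU : y ∈ D.posUnipotent F := Subgroup.pow_mem _ hvU k
  have hyn : n * y * n⁻¹ = y⁻¹ := by
    rw [hy, ← conj_pow, hz', inv_pow]
  refine ⟨y * u₁⁻¹, Subgroup.mul_mem _ (hle (hU hyU)) (Subgroup.inv_mem _ (hle (hU hu₁))), n, hnN, hnn, ?_⟩
  calc y * u₁⁻¹ * t * (y * u₁⁻¹)⁻¹ = y * (u₁⁻¹ * t * u₁) * y⁻¹ := by group
    _ = y * (n * v) * y⁻¹ := by rw [e3]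
    _ = n := by
      have h3 : n * v = v⁻¹ * n := by
        rw [← hz']
        group
      have h4 : n * y⁻¹ = y * n := by
        have h5 : n * y⁻¹ * n⁻¹ = y := by
          have h6 := congrArg (fun a => a⁻¹) hyn
          simp only [_root_.mul_inv_rev, inv_inv] at h6
          rw [← mul_assoc] at h6
          exact h6
        calc n * y⁻¹ = (n * y⁻¹ * n⁻¹) * n := by group
          _ = y * n := by rw [h5]
      have h5 : v⁻¹ = y⁻¹ * y⁻¹ := by
        rw [← hk, _root_.mul_inv_rev]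
      rw [h3, h5]
      calc y * (y⁻¹ * y⁻¹ * n) * y⁻¹ = y⁻¹ * (n * y⁻¹) := by group
        _ = n := by rw [h4]; group

end Full

end Cfsg.Agent.Lib.Chev
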