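import Cfsg.Agent.Lib.ChevIO.Ind

/-!
# The order of the centraliser of an element of the torus

`|C_G(z)| = |C_U(z)| |T| ∑_{σ ∈ W_z} q^{ℓ_z(σ)}`, from the Bruhat decomposition.
-/

namespace Cfsg.Agent.Lib.Chev

open Cfsg.Lie Matrix Equiv

variable {F : Type*} [Field F]
variable {T : Tabs} {X : Extra} {R : RootTab} {D : ChevalleyDatum} (hF : Full T X R D)

open scoped Classical in
/-- The inversions of `σ` in a set of roots. -/
noncomputable def invP (R : RootTab) (D : ChevalleyDatum) (P : Fin D.nroots → Prop)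
    (σ : Perm (Fin D.nroots)) : ℕ :=
  (Finset.univ.filter fun r : Fin D.nroots =>
    R.N ≤ (r : ℕ) ∧ ((σ r : Fin D.nroots) : ℕ) < R.N ∧ P r).card

theorem invP_one (R : RootTab) (D : ChevalleyDatum) (P : Fin D.nroots → Prop) : invP R D P 1 = 0 := by
  classical
  refine Finset.card_eq_zero.2 (Finset.eq_empty_of_forall_notMem ?_)
  intro r hr
  obtain ⟨-, h5, h6, -⟩ := Finset.mem_filter.1 hr
  simp only [Perm.one_apply] at h6
  omega

namespace Full

/-- The elements of a cell with `z g = g z'`. -/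
def fixS (D : ChevalleyDatum) (F : Type*) [Field F] (n z z' : GL D.Idx F) : Set (GL D.Idx F) :=
  {g | g ∈ cellS D F n ∧ z * g = g * z'}

/-- The fixed points of `z` on `U`. -/
def fixU (D : ChevalleyDatum) (F : Type*) [Field F] (z : GL D.Idx F) : Set (GL D.Idx F) :=
  {u | u ∈ D.posUnipotent F ∧ z * u = u * z}

theorem cell_mul_left {n g b : GL D.Idx F} (hg : g ∈ cellS D F n) (hb : b ∈ D.borelSubgroup F) :
    b * g ∈ cellS D F n := by
  obtain ⟨b₁, h₁, b₂, h₂, rfl⟩ := hg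
  exact ⟨b * b₁, Subgroup.mul_mem _ hb h₁, b₂, h₂, by group⟩

open scoped Classical in
theorem card_fixed_scalar [Fintype F] (χ : Fˣ) :
    Nat.card {t : F // (χ : F) * t = t} = if χ = 1 then Fintype.card F else 1 := by
  by_cases h : χ = 1
  · rw [if_pos h, Nat.card_eq_fintype_card]
    subst h
    simp
  · rw [if_neg h]
    have h1 : (χ : F) - 1 ≠ 0 := by
      intro e
      apply h
      apply Units.ext
      simpa [sub_eq_zero] using e
    have h2 : ∀ t : {t : F // (χ : F) * t = t}, t = ⟨0, by simp⟩ := by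
      rintro ⟨t, ht⟩
      apply Subtype.ext
      have : ((χ : F) - 1) * t = 0 := by
        rw [sub_mul, ht]
        simp
      exact (mul_eq_zero.1 this).resolve_left h1
    haveI : Unique {t : F // (χ : F) * t = t} := ⟨⟨⟨0, by simp⟩⟩, h2⟩
    exact Nat.card_unique

include hF

open scoped Classical in
/-- Inversions in a subset and a fundamental reflection. -/
theorem invP_mul {J : Set ℕ} {σ : Perm (Fin D.nroots)} (hσ : σ ∈ hF.Wk J) {i : ℕ} (hi : i < D.rank)
    (P : Fin D.nroots → Prop) (h : R.N ≤ ((σ ⟨D.simple i, hF.simple_lt hi⟩ : Fin D.nroots) : ℕ)) :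
    invP R D P (σ * hF.wPerm hi) = invP R D (fun r => P (hF.wPerm hi r)) σ +
      if P ⟨D.simple i, hF.simple_lt hi⟩ then 1 else 0 := by
  set p : Fin D.nroots := ⟨D.simple i, hF.simple_lt hi⟩ with hp
  set S₁ := (Finset.univ.filter fun r : Fin D.nroots => R.N ≤ (r : ℕ) ∧
    (((σ * hF.wPerm hi) r : Fin D.nroots) : ℕ) < R.N ∧ P r) with hS₁
  set S := (Finset.univ.filter fun r : Fin D.nroots => R.N ≤ (r : ℕ) ∧
    ((σ r : Fin D.nroots) : ℕ) < R.N ∧ P (hF.wPerm hi r)) with hS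
  have hmS₁ : ∀ r, r ∈ S₁ ↔ R.N ≤ (r : ℕ) ∧ (((σ * hF.wPerm hi) r : Fin D.nroots) : ℕ) < R.N ∧ P r := by
    intro r
    exact ⟨fun h => (Finset.mem_filter.1 h).2, fun h => Finset.mem_filter.2 ⟨Finset.mem_univ _, h⟩⟩
  have hmS : ∀ r, r ∈ S ↔ R.N ≤ (r : ℕ) ∧ ((σ r : Fin D.nroots) : ℕ) < R.N ∧ P (hF.wPerm hi r) := by
    intro r
    exact ⟨fun h => (Finset.mem_filter.1 h).2, fun h => Finset.mem_filter.2 ⟨Finset.mem_univ _, h⟩⟩
  have hww : ∀ b : Fin D.nroots, hF.wPerm hi (hF.wPerm hi b) = b := fun b =>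
    Fin.ext (hF.wf_wf hi b.2)
  have hpos : ∀ r : Fin D.nroots, R.N ≤ (r : ℕ) → r ≠ p →
      R.N ≤ ((hF.wPerm hi r : Fin D.nroots) : ℕ) ∧ hF.wPerm hi r ≠ p := by
    intro r hr hne
    have h1 := hF.wf_pos r.2 hr hi (fun h => hne (Fin.ext h))
    refine ⟨h1.1, fun h => h1.2 ?_⟩
    have := congrArg Fin.val h
    exact this
  have hcard : (S₁.erase p).card = S.card := by
    apply Finset.card_bij (fun r _ => hF.wPerm hi r)
    · intro r hr
      rw [Finset.mem_erase, hmS₁] at hr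
      rw [hmS]
      obtain ⟨h1, h2, h3, h4⟩ := hr
      refine ⟨(hpos r h2 h1).1, h3, ?_⟩
      rw [hww]
      exact h4
    · intro a _ b _ h
      exact (hF.wPerm hi).injective h
    · intro b hb
      rw [hmS] at hb
      obtain ⟨h2, h3, h4⟩ := hb
      have hbp : b ≠ p := by
        rintro rfl
        omega
      refine ⟨hF.wPerm hi b, ?_, hww b⟩
      rw [Finset.mem_erase, hmS₁]
      refine ⟨(hpos b h2 hbp).2, (hpos b h2 hbp).1, ?_, h4⟩
      rw [Perm.mul_apply, hww]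
      exact h3
  have hpS₁ : p ∈ S₁ ↔ P p := by
    rw [hmS₁, Perm.mul_apply, hF.wPerm_simple hi, hF.neg_comm hσ, hF.negF_lt_iff]
    exact ⟨fun h => h.2.2, fun h' => ⟨hF.simple_ge hi, h, h'⟩⟩
  show S₁.card = S.card + _
  by_cases hPp : P p
  · rw [if_pos hPp, ← hcard, Finset.card_erase_add_one (hpS₁.2 hPp)]
  · rw [if_neg hPp, ← hcard, add_zero, Finset.erase_eq_of_notMem (fun e => hPp (hpS₁.1 e))]

/-- The character after conjugating by `n_i`. -/
theorem chiT_nS_conj (i : Fin D.rank) (c : Fin D.rank → Fˣ) (s : Fin D.nroots) :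
    chiT D (c * Pi.mulSingle i (chiT D c (D.simple i))⁻¹) s = chiT D c (hF.wPerm i.2 s) := by
  show _ = chiT D c (X.wf i s)
  rw [hF.chiT_wf c i.2 s.2, chiT_mul, hF.mulSingle_chiT, _root_.zpow_neg, _root_.inv_zpow]

/-- One step of the count. -/
theorem fix_step_card [Fintype F] {n : ↥(D.monomialSubgroup F)} (i : Fin D.rank)
    (hp : R.N ≤ ((hF.rhoN F n ⟨D.simple i, hF.simple_lt i.2⟩ : Fin D.nroots) : ℕ))
    (c c' : Fin D.rank → Fˣ) :
    Nat.card (fixS D F (n.1 * hF.nS i) (tor R D c) (tor R D c')) =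
      Nat.card (fixS D F n.1 (tor R D c) (tor R D (c' * Pi.mulSingle i (chiT D c' (D.simple i))⁻¹))) *
        Nat.card {t : F // ((chiT D c' (D.simple i) : Fˣ) : F) * t = t} := by
  have hi := i.2
  set z := tor R D c with hz
  set z' := tor R D c' with hz'
  set c₂ := c' * Pi.mulSingle i (chiT D c' (D.simple i))⁻¹ with hc₂
  have hz₂ : hF.nS i * z' * (hF.nS i)⁻¹ = tor R D c₂ := hF.nS_conj_tor i c'
  set z₂ := tor R D c₂ with hz₂'
  set χ : Fˣ := chiT D c' (D.simple i) with hχ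
  have hconj : ∀ t : F, z' * hF.c.xG (D.simple i) t * z'⁻¹ = hF.c.xG (D.simple i) ((χ : F) * t) :=
    hF.tor_conj_xG c' (hF.simple_lt hi)
  have hzB : z ∈ D.borelSubgroup F := hF.c.diagonal_le_borel (hF.tor_mem_diagonal c)
  have hz₂B : z₂ ∈ D.borelSubgroup F := hF.c.diagonal_le_borel (hF.tor_mem_diagonal c₂)
  have hn₂ : z₂ * hF.nS i = hF.nS i * z' := by
    rw [← hz₂]
    group
  let f : ↥(fixS D F n.1 z z₂) × {t : F // (χ : F) * t = t} → ↥(fixS D F (n.1 * hF.nS i) z z') := fun x =>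
    ⟨x.1.1 * hF.nS i * hF.c.xG (D.simple i) x.2.1, hF.cell_step_mem hi hp x.1.2.1 x.2.1, by
      obtain ⟨⟨g, hg, e⟩, ⟨t, ht⟩⟩ := x
      have h1 : z' * hF.c.xG (D.simple i) t = hF.c.xG (D.simple i) t * z' := by
        have h3 : z' * hF.c.xG (D.simple i) t * z'⁻¹ = hF.c.xG (D.simple i) t := by rw [hconj, ht]
        calc z' * hF.c.xG (D.simple i) t = (z' * hF.c.xG (D.simple i) t * z'⁻¹) * z' := by group
          _ = hF.c.xG (D.simple i) t * z' := by rw [h3]
      show z * (g * hF.nS i * hF.c.xG (D.simple i) t) = g * hF.nS i * hF.c.xG (D.simple i) t * z'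
      calc z * (g * hF.nS i * hF.c.xG (D.simple i) t)
          = (z * g) * hF.nS i * hF.c.xG (D.simple i) t := by group
        _ = g * (z₂ * hF.nS i) * hF.c.xG (D.simple i) t := by rw [e]; group
        _ = g * hF.nS i * (z' * hF.c.xG (D.simple i) t) := by rw [hn₂]; group
        _ = g * hF.nS i * hF.c.xG (D.simple i) t * z' := by rw [h1]; group⟩
  have hf : Function.Bijective f := by
    constructor
    · rintro ⟨⟨g, hg⟩, ⟨t, ht⟩⟩ ⟨⟨g', hg'⟩, ⟨t', ht'⟩⟩ e
      have e' : g * hF.nS i * hF.c.xG (D.simple i) t = g' * hF.nS i * hF.c.xG (D.simple i) t' :=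
        congrArg Subtype.val e
      have htt := hF.cell_step_inj hi hp hg.1 hg'.1 e'
      subst htt
      have e2 := mul_right_cancel (mul_right_cancel e')
      subst e2
      rfl
    · rintro ⟨y, hy, hyz⟩
      obtain ⟨g, hg, t, rfl⟩ := hF.cell_step_surj hi hy
      -- `z g n x(t) = g z₂ n x(χ⁻¹ t)`
      set t₁ : F := ((χ⁻¹ : Fˣ) : F) * t with ht₁
      have h1 : (χ : F) * t₁ = t := by
        rw [ht₁, ← mul_assoc, ← Units.val_mul, mul_inv_cancel, Units.val_one, one_mul]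
      have h2 : hF.c.xG (D.simple i) t * z' = z' * hF.c.xG (D.simple i) t₁ := by
        have h3 := hconj t₁
        rw [h1] at h3
        calc hF.c.xG (D.simple i) t * z' = (z' * hF.c.xG (D.simple i) t₁ * z'⁻¹) * z' := by rw [h3]
          _ = z' * hF.c.xG (D.simple i) t₁ := by group
      have h3 : (z * g) * hF.nS i * hF.c.xG (D.simple i) t =
          (g * z₂) * hF.nS i * hF.c.xG (D.simple i) t₁ := by
        calc (z * g) * hF.nS i * hF.c.xG (D.simple i) t
            = z * (g * hF.nS i * hF.c.xG (D.simple i) t) := by group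
          _ = g * hF.nS i * hF.c.xG (D.simple i) t * z' := hyz
          _ = g * hF.nS i * (hF.c.xG (D.simple i) t * z') := by group
          _ = g * hF.nS i * (z' * hF.c.xG (D.simple i) t₁) := by rw [h2]
          _ = g * (hF.nS i * z') * hF.c.xG (D.simple i) t₁ := by group
          _ = g * (z₂ * hF.nS i) * hF.c.xG (D.simple i) t₁ := by rw [hn₂]
          _ = (g * z₂) * hF.nS i * hF.c.xG (D.simple i) t₁ := by group
      have h4 := hF.cell_step_inj hi hp (cell_mul_left hg hzB) (cell_mul_right hg hz₂B) h3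
      have h5 : z * g = g * z₂ := by
        rw [← h4] at h3
        exact mul_right_cancel (mul_right_cancel h3)
      have h6 : (χ : F) * t = t := (congrArg (fun x => (χ : F) * x) h4).trans h1
      exact ⟨(⟨g, hg, h5⟩, ⟨t, h6⟩), rfl⟩
  rw [← Nat.card_congr (Equiv.ofBijective f hf), Nat.card_prod]

/-- The torus is commutative. -/
theorem tor_comm (c : Fin D.rank → Fˣ) {h : GL D.Idx F} (hh : h ∈ D.diagonalSubgroup F) :
    tor R D c * h = h * tor R D c := by
  obtain ⟨e, rfl⟩ := (hF.mem_diagonal_iff).1 hh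
  rw [tor_mul, tor_mul, mul_comm]

/-- The base of the count. -/
theorem fix_base_card (c c' : Fin D.rank → Fˣ) {h : GL D.Idx F} (hh : h ∈ D.diagonalSubgroup F)
    (hcc : tor R D c = tor R D c') :
    Nat.card (fixS D F h (tor R D c) (tor R D c')) =
      Nat.card (fixU D F (tor R D c)) * Nat.card (D.diagonalSubgroup F) := by
  rw [← hcc, ← Nat.card_prod]
  symm
  set z := tor R D c with hz
  have hzN := hF.diagonal_le_normalizer_U (hF.tor_mem_diagonal (F := F) c)
  let f : ↥(fixU D F z) × ↥(D.diagonalSubgroup F) → ↥(fixS D F h z z) := fun x =>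
    ⟨x.1.1 * x.2.1, by
      rw [hF.cellS_of_mem_diagonal hh]
      exact Subgroup.mul_mem _ (hF.c.posUnipotent_le_borel x.1.2.1) (hF.c.diagonal_le_borel x.2.2), by
      rw [← mul_assoc, x.1.2.2, mul_assoc, hF.tor_comm c x.2.2, mul_assoc]⟩
  refine Nat.card_congr (Equiv.ofBijective f ⟨?_, ?_⟩)
  · rintro ⟨⟨u, hu⟩, ⟨t, ht⟩⟩ ⟨⟨u', hu'⟩, ⟨t', ht'⟩⟩ e
    have e' : u * t = u' * t' := congrArg Subtype.val e
    have h1 : u'⁻¹ * u = t' * t⁻¹ := by
      rw [inv_mul_eq_iff_eq_mul, ← mul_assoc, eq_mul_inv_iff_mul_eq, e']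
    have h2 : u'⁻¹ * u ∈ D.posUnipotent F ⊓ D.diagonalSubgroup F :=
      ⟨Subgroup.mul_mem _ (Subgroup.inv_mem _ hu'.1) hu.1, by
        rw [h1]
        exact Subgroup.mul_mem _ ht' (Subgroup.inv_mem _ ht)⟩
    rw [hF.U_inf_H, Subgroup.mem_bot] at h2
    have h3 : u = u' := (inv_mul_eq_one.1 h2).symm
    subst h3
    have h4 : t = t' := mul_left_cancel e'
    subst h4
    rfl
  · rintro ⟨g, hg, e⟩
    rw [hF.cellS_of_mem_diagonal hh] at hg
    obtain ⟨u, hu, t, ht, rfl⟩ := (hF.mem_borel_iff).1 hg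
    have h1 : z * u * z⁻¹ ∈ D.posUnipotent F := (Subgroup.mem_set_normalizer_iff.1 hzN u).1 hu
    have h2 : u⁻¹ * (z * u * z⁻¹) = 1 := by
      have h3 : u⁻¹ * (z * u * z⁻¹) ∈ D.posUnipotent F ⊓ D.diagonalSubgroup F := by
        refine ⟨Subgroup.mul_mem _ (Subgroup.inv_mem _ hu) h1, ?_⟩
        have h4 : u⁻¹ * (z * u * z⁻¹) = t * z * t⁻¹ * z⁻¹ := by
          have h5 : z * u = u * t * z * t⁻¹ * z⁻¹ * z := by
            have h6 : z * u * t = u * t * z := by rw [mul_assoc, e]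
            calc z * u = z * u * t * t⁻¹ := by group
              _ = u * t * z * t⁻¹ := by rw [h6]
              _ = _ := by group
          rw [show z * u * z⁻¹ = (z * u) * z⁻¹ from rfl, h5]
          group
        rw [h4]
        exact Subgroup.mul_mem _ (Subgroup.mul_mem _ (Subgroup.mul_mem _ ht (hF.tor_mem_diagonal c))
          (Subgroup.inv_mem _ ht)) (Subgroup.inv_mem _ (hF.tor_mem_diagonal c))
      rw [hF.U_inf_H, Subgroup.mem_bot] at h3
      exact h3
    have h3 : z * u = u * z := by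
      have h4 : z * u * z⁻¹ = u := (inv_mul_eq_one.1 h2).symm
      calc z * u = z * u * z⁻¹ * z := by group
        _ = u * z := by rw [h4]
    exact ⟨(⟨u, hu, h3⟩, ⟨t, ht⟩), rfl⟩

/-- No fixed points unless `z = z'`. -/
theorem fix_base_empty (c c' : Fin D.rank → Fˣ) {h : GL D.Idx F} (hh : h ∈ D.diagonalSubgroup F)
    (hcc : tor R D c ≠ tor R D c') :
    Nat.card (fixS D F h (tor R D c) (tor R D c')) = 0 := by
  haveI : IsEmpty ↥(fixS D F h (tor R D c) (tor R D c')) := by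
    constructor
    rintro ⟨g, hg, e⟩
    rw [hF.cellS_of_mem_diagonal hh] at hg
    obtain ⟨u, hu, t, ht, rfl⟩ := (hF.mem_borel_iff).1 hg
    set z := tor R D c with hz
    set z' := tor R D c' with hz'
    have hzN := hF.diagonal_le_normalizer_U (hF.tor_mem_diagonal (F := F) c)
    have h1 : z * u * z⁻¹ ∈ D.posUnipotent F := (Subgroup.mem_set_normalizer_iff.1 hzN u).1 hu
    have h3 : u⁻¹ * (z * u * z⁻¹) ∈ D.posUnipotent F ⊓ D.diagonalSubgroup F := by
      refine ⟨Subgroup.mul_mem _ (Subgroup.inv_mem _ hu) h1, ?_⟩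
      have h4 : u⁻¹ * (z * u * z⁻¹) = t * z' * t⁻¹ * z⁻¹ := by
        have h5 : z * u = u * t * z' * t⁻¹ := by
          have h6 : z * u * t = u * t * z' := by rw [mul_assoc, e]
          calc z * u = z * u * t * t⁻¹ := by group
            _ = u * t * z' * t⁻¹ := by rw [h6]
        rw [show z * u * z⁻¹ = (z * u) * z⁻¹ from rfl, h5]
        group
      rw [h4]
      exact Subgroup.mul_mem _ (Subgroup.mul_mem _ (Subgroup.mul_mem _ ht (hF.tor_mem_diagonal c'))
        (Subgroup.inv_mem _ ht)) (Subgroup.inv_mem _ (hF.tor_mem_diagonal c))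
    rw [hF.U_inf_H, Subgroup.mem_bot] at h3
    have h4 : u⁻¹ * (z * u * z⁻¹) = t * z' * t⁻¹ * z⁻¹ := by
      have h5 : z * u = u * t * z' * t⁻¹ := by
        have h6 : z * u * t = u * t * z' := by rw [mul_assoc, e]
        calc z * u = z * u * t * t⁻¹ := by group
          _ = u * t * z' * t⁻¹ := by rw [h6]
      rw [show z * u * z⁻¹ = (z * u) * z⁻¹ from rfl, h5]
      group
    rw [h4] at h3
    have h8 : z' * t = t * z' := hF.tor_comm c' ht
    have h7 : t * z' * t⁻¹ = z' := by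
      rw [← h8]
      group
    rw [h7, mul_inv_eq_one] at h3
    exact hcc h3.symm
  exact Nat.card_of_isEmpty

open scoped Classical in
/-- The count on a cell. -/
theorem fix_card [Fintype F] (c : Fin D.rank → Fˣ) : ∀ (k : ℕ) (n : ↥(D.monomialSubgroup F)) (c' : Fin D.rank → Fˣ),
    invF R D (hF.rhoN F n) = k →
    Nat.card (fixS D F n.1 (tor R D c) (tor R D c')) =
      if n.1 * tor R D c' * n.1⁻¹ = tor R D c then
        Nat.card (fixU D F (tor R D c)) * Nat.card (D.diagonalSubgroup F) *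
          Fintype.card F ^ invP R D (fun r => chiT D c' r = 1) (hF.rhoN F n)
      else 0 := by
  intro k
  induction k with
  | zero =>
    intro n c' hn
    have h1 := hF.eq_one_of_invF (hF.rhoN_mem_Wk n) hn
    have h2 := hF.mem_diagonal_of_rhoN_eq_one h1
    have h3 : n.1 * tor R D c' * n.1⁻¹ = tor R D c' := by
      rw [← hF.tor_comm c' h2]
      group
    rw [h3]
    have h4 : invP R D (fun r => chiT D c' r = 1) (hF.rhoN F n) = 0 := by
      rw [h1, invP_one]
    rw [h4, pow_zero, mul_one]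
    by_cases h5 : tor R D c' = tor R D c
    · rw [if_pos h5, hF.fix_base_card c c' h2 h5.symm]
    · rw [if_neg h5, hF.fix_base_empty c c' h2 (Ne.symm h5)]
  | succ k ih =>
    intro n c' hn
    obtain ⟨i, hi, -, hneg⟩ := hF.exists_simple_neg (hF.rhoN_mem_Wk n) (by omega)
    have h1 := (hF.invF_mul (hF.rhoN_mem_Wk n) hi).2 hneg
    let n₂ : ↥(D.monomialSubgroup F) := n * (hF.nN hi)⁻¹
    have hsq : hF.rhoN F n₂ = hF.rhoN F n * hF.wPerm hi := by
      rw [map_mul, map_inv, hF.rhoN_nN, hF.wPerm_inv]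
    have hp : R.N ≤ ((hF.rhoN F n₂ ⟨D.simple i, hF.simple_lt hi⟩ : Fin D.nroots) : ℕ) := by
      rw [hsq, Perm.mul_apply]
      have h2 : hF.wPerm hi ⟨D.simple i, hF.simple_lt hi⟩ = hF.negF ⟨D.simple i, hF.simple_lt hi⟩ :=
        Fin.ext (hF.wf_simple hi)
      rw [h2, hF.neg_comm (hF.rhoN_mem_Wk n)]
      have h7 := hF.negF_lt_iff (hF.negF (hF.rhoN F n ⟨D.simple i, hF.simple_lt hi⟩))
      rw [hF.negF_negF] at h7
      exact h7.1 hneg
    have h4 : n₂.1 * hF.nS i = n.1 := by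
      show n.1 * (hF.nS i)⁻¹ * hF.nS i = n.1
      group
    have h3 := hF.fix_step_card (⟨i, hi⟩ : Fin D.rank) hp c c'
    simp only at h3
    rw [h4] at h3
    rw [h3, ih n₂ _ (by rw [hsq]; omega), card_fixed_scalar]
    set c₂ := c' * Pi.mulSingle (⟨i, hi⟩ : Fin D.rank) (chiT D c' (D.simple i))⁻¹ with hc₂
    have h5 : n₂.1 * tor R D c₂ * n₂.1⁻¹ = n.1 * tor R D c' * n.1⁻¹ := by
      have h6 : hF.nS i * tor R D c' * (hF.nS i)⁻¹ = tor R D c₂ := hF.nS_conj_tor ⟨i, hi⟩ c'
      rw [← h6, ← h4]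
      group
    rw [h5]
    by_cases h6 : n.1 * tor R D c' * n.1⁻¹ = tor R D c
    · rw [if_pos h6, if_pos h6]
      -- the exponent
      have h7 := hF.invP_mul (J := Set.univ) (hF.rhoN_mem_Wk n₂) hi (fun r => chiT D c' r = 1) hp
      have h8 : hF.rhoN F n₂ * hF.wPerm hi = hF.rhoN F n := by
        rw [hsq, mul_assoc, hF.wPerm_mul_self, mul_one]
      rw [h8] at h7
      have h9 : (fun r : Fin D.nroots => chiT D c' (hF.wPerm hi r) = 1) = fun r : Fin D.nroots => chiT D c₂ r = 1 := by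
        funext r
        rw [hF.chiT_nS_conj (⟨i, hi⟩ : Fin D.rank) c' r]
      rw [h9] at h7
      rw [h7]
      by_cases h10 : chiT D c' (D.simple i) = 1
      · rw [if_pos h10, if_pos (show chiT D c' ((⟨D.simple i, hF.simple_lt hi⟩ : Fin D.nroots) : ℕ) = 1 from h10),
          pow_succ]
        ring
      · rw [if_neg h10, if_neg (show ¬ chiT D c' ((⟨D.simple i, hF.simple_lt hi⟩ : Fin D.nroots) : ℕ) = 1 from h10),
          add_zero, mul_one]
    · rw [if_neg h6, if_neg h6, zero_mul]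

/-- Conjugation by `n` and characters -/
theorem conj_tor_iff (n : ↥(D.monomialSubgroup F)) (c : Fin D.rank → Fˣ) :
    n.1 * tor R D c * n.1⁻¹ = tor R D c ↔
      ∀ s : Fin D.nroots, chiT D c (hF.rhoN F n s) = chiT D c s := by
  obtain ⟨u, hu⟩ := hF.rhoN_spec n
  set σ := hF.rhoN F n with hσ
  have hmem : n.1 * tor R D c * n.1⁻¹ ∈ D.diagonalSubgroup F :=
    (Subgroup.mem_set_normalizer_iff.1 (hF.monomial_le_normalizer n.2) _).1 (hF.tor_mem_diagonal c)
  obtain ⟨c₂, hc₂⟩ := (hF.mem_diagonal_iff).1 hmem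
  -- `χ_{σ s}(c₂) = χ_s(c)`
  have key : ∀ s : Fin D.nroots, chiT D c₂ (σ s) = chiT D c s := by
    intro s
    have h1 := hF.tor_conj_xG c₂ (σ s).2 ((u s : F) * 1)
    have h2 := hu.conj s (1 : F)
    have h3 := hF.tor_conj_xG c s.2 ((1 : F))
    rw [← h2, ← hc₂] at h1
    have h4 : n.1 * tor R D c * n.1⁻¹ * (n.1 * hF.c.xG s 1 * n.1⁻¹) * (n.1 * tor R D c * n.1⁻¹)⁻¹ =
        n.1 * (tor R D c * hF.c.xG s 1 * (tor R D c)⁻¹) * n.1⁻¹ := by group
    rw [h4, h3, hu.conj] at h1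
    have h5 := hF.xG_param_inj (σ s).2 h1
    apply Units.ext
    rw [mul_one] at h5
    have h6 : (u s : F) ≠ 0 := (u s).ne_zero
    have h7 : (u s : F) * ((chiT D c s : Fˣ) : F) = ((chiT D c₂ (σ s) : Fˣ) : F) * (u s : F) := by
      rw [mul_one] at h1
      simpa [mul_comm] using h5
    have h8 : ((chiT D c₂ (σ s) : Fˣ) : F) * (u s : F) = (u s : F) * ((chiT D c₂ (σ s) : Fˣ) : F) := mul_comm _ _
    rw [h8] at h7
    exact (mul_left_cancel₀ h6 h7).symm
  rw [hc₂]
  constructor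
  · intro e s
    rw [← key s]
    have h1 : ∀ r : Fin D.nroots, chiT D c₂ r = chiT D c r := by
      intro r
      have h2 := hF.tor_conj_xG c₂ r.2 (1 : F)
      have h3 := hF.tor_conj_xG c r.2 (1 : F)
      rw [e] at h2
      rw [h2] at h3
      apply Units.ext
      have h4 := hF.xG_param_inj r.2 h3
      simpa using h4
    exact (h1 _).symm
  · intro h
    apply hF.tor_eq_of_chiT
    intro s hs
    have hσσ : σ (σ⁻¹ ⟨s, hs⟩) = ⟨s, hs⟩ := by simp
    have h1 := key (σ⁻¹ ⟨s, hs⟩)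
    rw [hσσ] at h1
    have h2 := h (σ⁻¹ ⟨s, hs⟩)
    rw [hσσ] at h2
    rw [← h2] at h1
    exact h1

/-- Conjugating an ordered product by an element of the torus. -/
theorem tor_conj_ordW (c : Fin D.rank → Fˣ) : ∀ (m k : ℕ), k + m = D.nroots → ∀ t : ℕ → F,
    tor R D c * hF.ordW k t * (tor R D c)⁻¹ = hF.ordW k (fun r => ((chiT D c r : Fˣ) : F) * t r) := by
  intro m
  induction m with
  | zero =>
    intro k hk t
    rw [hF.ordW_of_ge (by omega), hF.ordW_of_ge (by omega)]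
    group
  | succ m ih =>
    intro k hk t
    have hkn : k < D.nroots := by omega
    rw [hF.ordW_succ hkn, hF.ordW_succ hkn, ← ih (k + 1) (by omega) t, ← hF.tor_conj_xG c hkn]
    group

open scoped Classical in
/-- The order of the fixed points on `U`. -/
theorem card_fixU [Fintype F] (c : Fin D.rank → Fˣ) :
    Nat.card (fixU D F (tor R D c)) =
      Fintype.card F ^ ((Finset.range R.N).filter fun k => chiT D c (R.N + k) = 1).card := by
  have h2 := hF.two
  set z := tor R D c with hz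
  let χ : ℕ → F := fun r => ((chiT D c r : Fˣ) : F)
  let ext : (Fin R.N → F) → ℕ → F := fun t r => if h : R.N ≤ r ∧ r < D.nroots then t ⟨r - R.N, by omega⟩ else 0
  have hext : ∀ t (i : Fin R.N), ext t (R.N + (i : ℕ)) = t i := by
    intro t i
    simp only [ext]
    rw [dif_pos (by have := i.2; omega)]
    congr 1
    apply Fin.ext
    simp
  have hconj : ∀ t : ℕ → F, z * hF.ordW R.N t * z⁻¹ = hF.ordW R.N (fun r => χ r * t r) :=
    hF.tor_conj_ordW c R.N R.N (by omega)
  let G := {t : Fin R.N → F // ∀ i : Fin R.N, χ (R.N + (i : ℕ)) * t i = t i}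
  have hfix : ∀ t : ℕ → F, z * hF.ordW R.N t = hF.ordW R.N t * z ↔ ∀ r, R.N ≤ r → r < D.nroots → χ r * t r = t r := by
    intro t
    constructor
    · intro e
      have h3 : hF.ordW R.N (fun r => χ r * t r) = hF.ordW R.N t := by
        rw [← hconj, e]
        group
      exact hF.ordW_inj R.N R.N (by omega) le_rfl _ _ h3
    · intro e
      have h3 : hF.ordW R.N (fun r => χ r * t r) = hF.ordW R.N t := hF.ordW_congr e
      rw [← hconj] at h3
      calc z * hF.ordW R.N t = z * hF.ordW R.N t * z⁻¹ * z := by group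
        _ = _ := by rw [h3]
  let f : G → ↥(fixU D F z) := fun t => ⟨hF.ordW R.N (ext t.1), by
      rw [hF.U_eq_Uk]
      exact hF.ordW_mem _ _, by
      rw [hfix]
      intro r h3 h4
      have h5 : ext t.1 (R.N + (r - R.N)) = t.1 ⟨r - R.N, by omega⟩ := hext t.1 ⟨r - R.N, by omega⟩
      rw [show R.N + (r - R.N) = r by omega] at h5
      rw [h5]
      have h6 := t.2 ⟨r - R.N, by omega⟩
      simp only at h6
      rw [show R.N + (r - R.N) = r by omega] at h6
      exact h6⟩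
  have hf : Function.Bijective f := by
    constructor
    · rintro ⟨t, ht⟩ ⟨t', ht'⟩ e
      have h3 : hF.ordW R.N (ext t) = hF.ordW R.N (ext t') := congrArg Subtype.val e
      have h4 := hF.ordW_inj R.N R.N (by omega) le_rfl _ _ h3
      apply Subtype.ext
      funext i
      have h5 := h4 (R.N + (i : ℕ)) (by omega) (by have := i.2; omega)
      rwa [hext, hext] at h5
    · rintro ⟨g, hg, e⟩
      have hg' := hg
      rw [hF.U_eq_Uk] at hg'
      obtain ⟨t, rfl⟩ := hF.exists_ordW R.N R.N (by omega) le_rfl _ hg'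
      have h3 := (hfix t).1 e
      refine ⟨⟨fun i : Fin R.N => t (R.N + (i : ℕ)), fun i => h3 _ (by omega) (by have := i.2; omega)⟩, ?_⟩
      apply Subtype.ext
      show hF.ordW R.N _ = _
      apply hF.ordW_congr
      intro r h4 h5
      have h6 : ext (fun i : Fin R.N => t (R.N + (i : ℕ))) (R.N + (r - R.N)) = t (R.N + (r - R.N)) :=
        hext (fun i : Fin R.N => t (R.N + (i : ℕ))) ⟨r - R.N, by omega⟩
      rw [show R.N + (r - R.N) = r by omega] at h6
      exact h6
  rw [← Nat.card_congr (Equiv.ofBijective f hf)]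
  let e : G ≃ ((i : Fin R.N) → {x : F // χ (R.N + (i : ℕ)) * x = x}) :=
    { toFun := fun t i => ⟨t.1 i, t.2 i⟩
      invFun := fun t => ⟨fun i => (t i).1, fun i => (t i).2⟩
      left_inv := fun _ => rfl
      right_inv := fun _ => rfl }
  rw [Nat.card_congr e, Nat.card_pi]
  have h3 : ∀ i : Fin R.N, Nat.card {x : F // χ (R.N + (i : ℕ)) * x = x} =
      if chiT D c (R.N + (i : ℕ)) = 1 then Fintype.card F else 1 := fun i => card_fixed_scalar _
  simp_rw [h3]
  rw [Fin.prod_univ_eq_prod_range (fun k => if chiT D c (R.N + k) = 1 then Fintype.card F else 1) R.N,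
    Finset.prod_ite]
  simp

open scoped Classical in
/-- The order of the centraliser of an element of the torus. -/
theorem card_cent [Fintype F] (c : Fin D.rank → Fˣ) :
    Nat.card {g : GL D.Idx F // g ∈ D.group F ∧ tor R D c * g = g * tor R D c} =
      Nat.card (fixU D F (tor R D c)) * Nat.card (D.diagonalSubgroup F) *
        ∑ σ ∈ (Finset.univ.filter fun σ : Perm (Fin D.nroots) => σ ∈ hF.Wk Set.univ ∧
            ∀ s : Fin D.nroots, chiT D c (σ s) = chiT D c s),
          Fintype.card F ^ invP R D (fun r => chiT D c r = 1) σ := by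
  set z := tor R D c with hz
  have hchoose : ∀ σ : {σ : Perm (Fin D.nroots) // σ ∈ hF.Wk Set.univ},
      ∃ n : ↥(D.monomialSubgroup F), hF.rhoN F n = σ.1 := fun σ => hF.exists_rhoN_eq σ.2
  choose nσ hnσ using hchoose
  have hle := hF.c.borel_le_group (F := F)
  have hle' := hF.c.monomial_le_group (F := F)
  have hcellG : ∀ (n : ↥(D.monomialSubgroup F)) (g : GL D.Idx F), g ∈ cellS D F n.1 → g ∈ D.group F := by
    rintro n g ⟨b₁, hb₁, b₂, hb₂, rfl⟩
    exact Subgroup.mul_mem _ (Subgroup.mul_mem _ (hle hb₁) (hle' n.2)) (hle hb₂)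
  let f : (Σ σ : {σ : Perm (Fin D.nroots) // σ ∈ hF.Wk Set.univ}, ↥(fixS D F (nσ σ).1 z z)) →
      {g : GL D.Idx F // g ∈ D.group F ∧ z * g = g * z} :=
    fun x => ⟨x.2.1, hcellG _ _ x.2.2.1, x.2.2.2⟩
  have hf : Function.Bijective f := by
    constructor
    · rintro ⟨σ, ⟨g, hg⟩⟩ ⟨τ, ⟨g', hg'⟩⟩ e
      have e' : g = g' := congrArg Subtype.val e
      subst e'
      have h1 := hF.cell_disjoint (nσ σ).2 (nσ τ).2 hg.1 hg'.1
      have h2 : (nσ σ).1⁻¹ * (nσ τ).1 ∈ D.diagonalSubgroup F := by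
        rw [← hF.B_inf_N]
        exact ⟨h1, Subgroup.mul_mem _ (Subgroup.inv_mem _ (nσ σ).2) (nσ τ).2⟩
      have h3 := hF.rhoN_of_mem_diagonal ((nσ σ)⁻¹ * nσ τ) h2
      rw [map_mul, map_inv, hnσ, hnσ, inv_mul_eq_one] at h3
      have h4 : σ = τ := Subtype.ext h3
      subst h4
      rfl
    · rintro ⟨g, hg, hgz⟩
      obtain ⟨n, hn, hgn⟩ := Cfsg.Agent.Lib.BNPair.exists_mem_dc (P := hF.bnPair F) ⟨g, hg⟩
      have hn' : n.1 ∈ D.monomialSubgroup F := Subgroup.mem_subgroupOf.1 hn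
      obtain ⟨b₁, hb₁, b₂, hb₂, e⟩ := Cfsg.Agent.Lib.BNPair.mem_dc.1 hgn
      have hb₁' : b₁.1 ∈ D.borelSubgroup F := Subgroup.mem_subgroupOf.1 hb₁
      have hb₂' : b₂.1 ∈ D.borelSubgroup F := Subgroup.mem_subgroupOf.1 hb₂
      have e1 : g = b₁.1 * n.1 * b₂.1 := congrArg Subtype.val e
      let n' : ↥(D.monomialSubgroup F) := ⟨n.1, hn'⟩
      let σ : {σ : Perm (Fin D.nroots) // σ ∈ hF.Wk Set.univ} := ⟨hF.rhoN F n', hF.rhoN_mem_Wk n'⟩
      have h3 : hF.rhoN F ((nσ σ)⁻¹ * n') = 1 := by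
        rw [map_mul, map_inv, hnσ]
        simp [σ]
      have h4 := hF.mem_diagonal_of_rhoN_eq_one h3
      have h5 : (nσ σ).1⁻¹ * n.1 ∈ D.diagonalSubgroup F := h4
      have hmem : g ∈ cellS D F (nσ σ).1 := by
        refine ⟨b₁.1, hb₁', ((nσ σ).1⁻¹ * n.1) * b₂.1,
          Subgroup.mul_mem _ (hF.c.diagonal_le_borel h5) hb₂', ?_⟩
        rw [e1]
        group
      exact ⟨⟨σ, ⟨g, hmem, hgz⟩⟩, rfl⟩
  have hcount : ∀ σ : {σ : Perm (Fin D.nroots) // σ ∈ hF.Wk Set.univ},
      Nat.card (fixS D F (nσ σ).1 z z) =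
        if (∀ s : Fin D.nroots, chiT D c (σ.1 s) = chiT D c s) then
          Nat.card (fixU D F z) * Nat.card (D.diagonalSubgroup F) *
            Fintype.card F ^ invP R D (fun r => chiT D c r = 1) σ.1
        else 0 := by
    intro σ
    rw [hz, hF.fix_card c _ (nσ σ) c rfl, hnσ]
    by_cases h : ∀ s : Fin D.nroots, chiT D c (σ.1 s) = chiT D c s
    · rw [if_pos h, if_pos]
      rw [hF.conj_tor_iff, hnσ]
      exact h
    · rw [if_neg h, if_neg]
      rw [hF.conj_tor_iff, hnσ]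
      exact h
  rw [← Nat.card_congr (Equiv.ofBijective f hf), Nat.card_sigma]
  simp_rw [hcount]
  have e1 : (Finset.univ.filter fun σ : Perm (Fin D.nroots) => σ ∈ hF.Wk Set.univ ∧
      ∀ s : Fin D.nroots, chiT D c (σ s) = chiT D c s) =
      (Finset.univ.filter fun σ : Perm (Fin D.nroots) => σ ∈ hF.Wk Set.univ).filter
        (fun σ => ∀ s : Fin D.nroots, chiT D c (σ s) = chiT D c s) :=
    (Finset.filter_filter _ _ _).symm
  rw [e1, Finset.mul_sum, Finset.sum_filter,
    Finset.sum_subtype (p := fun σ => σ ∈ hF.Wk Set.univ)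
    (Finset.univ.filter fun σ : Perm (Fin D.nroots) => σ ∈ hF.Wk Set.univ) (fun σ => by simp)]

end Full

end Cfsg.Agent.Lib.Chev
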