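import Cfsg.Agent.Lib.ChevIO.Main

/-!
# Every involution of `N` is conjugate into the torus
-/

namespace Cfsg.Agent.Lib.Chev

open Cfsg.Lie Matrix Equiv

variable {F : Type*} [Field F]
variable {T : Tabs} {X : Extra} {R : RootTab} {D : ChevalleyDatum} (hF : Full T X R D)

namespace Full

include hF

theorem step_sq (h2 : (2 : F) ≠ 0) {n : ↥(D.monomialSubgroup F)} (hnn : n.1 * n.1 = 1) {σ u}
    (hact : hF.RootAct n.1 σ u) {i : Fin D.rank} (hr : σ (hF.pF i) = hF.negF (hF.pF i)) {γ : Fˣ}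
    (hγ : u (hF.pF i) = γ * γ) :
    ∃ m : ↥(D.monomialSubgroup F), m.1 * m.1 = 1 ∧ (∃ g ∈ D.group F, g * n.1 * g⁻¹ = m.1) ∧
      hF.rhoN F m = hF.wPerm i.2 * σ := by
  obtain ⟨h3, h4⟩ := hF.reduce_sq hact hnn hr hγ h2
  have h5 : hF.c.nG (D.neg (D.simple i)) (-(γ : F)) = tor R D (Pi.mulSingle i γ⁻¹) * hF.nS i := by
    rw [hF.nG_neg_root (hF.simple_lt i.2) (neg_ne_zero.2 γ.ne_zero), hF.c.nG_eq_hG_mul, inv_neg, _root_.neg_neg,
      ← hF.hSimple_eq_tor i γ⁻¹, Units.val_inv_eq_inv_val]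
    rfl
  have h6 : hF.c.nG ((hF.negF (hF.pF i) : Fin D.nroots) : ℕ) (-(γ : F)) = tor R D (Pi.mulSingle i γ⁻¹) * hF.nS i := h5
  have hmem : tor R D (Pi.mulSingle i γ⁻¹) * hF.nS i * n.1 ∈ D.monomialSubgroup F :=
    Subgroup.mul_mem _ (Subgroup.mul_mem _ (hF.c.diagonal_le_monomial (hF.tor_mem_diagonal _))
      (hF.nS_mem_monomial i.2)) n.2
  refine ⟨⟨_, hmem⟩, ?_, ⟨_, ?_, h4.trans ?_⟩, ?_⟩
  · show tor R D (Pi.mulSingle i γ⁻¹) * hF.nS i * n.1 * (tor R D (Pi.mulSingle i γ⁻¹) * hF.nS i * n.1) = 1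
    have h7 := h3
    have h8 : D.neg ((hF.pF i : Fin D.nroots) : ℕ) = D.neg (D.simple i) := rfl
    rw [h8, h5] at h7
    exact h7
  · exact Subgroup.mul_mem _ (hF.c.xG_mem_group (hF.pF i).2 _) (hF.c.xG_mem_group (hF.neg_lt (hF.pF i).2) _)
  · have h8 : D.neg ((hF.pF i : Fin D.nroots) : ℕ) = D.neg (D.simple i) := rfl
    rw [h8, h5]
  · apply hF.rhoN_eq
    have h7 := ((hF.rootAct_tor (F := F) (Pi.mulSingle i γ⁻¹)).mul (hF.rootAct_nS (F := F) i.2)).mul hact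
    rw [one_mul] at h7
    exact h7

theorem invF_s_mul {σ : Perm (Fin D.nroots)} (hσ : σ ∈ hF.Wk Set.univ) (hσσ : σ * σ = 1) {i : Fin D.rank}
    (hneg : ((σ (hF.pF i) : Fin D.nroots) : ℕ) < R.N) :
    invF R D (hF.wPerm i.2 * σ) + 1 = invF R D σ := by
  have h1 := (hF.invF_mul hσ i.2).2 hneg
  have hσi : σ⁻¹ = σ := inv_eq_of_mul_eq_one_right hσσ
  have h2 : (σ * hF.wPerm i.2)⁻¹ = hF.wPerm i.2 * σ := by
    rw [_root_.mul_inv_rev, hF.wPerm_inv, hσi]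
  have h3 : σ * hF.wPerm i.2 ∈ hF.Wk Set.univ :=
    Subgroup.mul_mem _ hσ (hF.wPerm_mem i.2 (Set.mem_univ _))
  rw [← h2, hF.invF_inv h3]
  exact h1

theorem invF_s_mul_s {σ : Perm (Fin D.nroots)} (hσ : σ ∈ hF.Wk Set.univ) (hσσ : σ * σ = 1) {i : Fin D.rank}
    (hneg : ((σ (hF.pF i) : Fin D.nroots) : ℕ) < R.N) (hne : σ (hF.pF i) ≠ hF.negF (hF.pF i)) :
    invF R D (hF.wPerm i.2 * σ * hF.wPerm i.2) + 2 = invF R D σ := by
  have h1 := hF.invF_s_mul hσ hσσ hneg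
  have h3 : hF.wPerm i.2 * σ ∈ hF.Wk Set.univ :=
    Subgroup.mul_mem _ (hF.wPerm_mem i.2 (Set.mem_univ _)) hσ
  have h4 : (((hF.wPerm i.2 * σ) ⟨D.simple i, hF.simple_lt i.2⟩ : Fin D.nroots) : ℕ) < R.N := by
    show X.wf i ((σ (hF.pF i) : Fin D.nroots) : ℕ) < R.N
    refine hF.wf_neg_root hneg i.2 ?_
    intro e
    exact hne (Fin.ext e)
  have h5 := (hF.invF_mul h3 i.2).2 h4
  omega

/-- The case of a pair of descents with odd pairing. -/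
theorem odd_step [Fintype F] (hodd : Odd (Fintype.card F)) (h2F : (2 : F) ≠ 0)
    {n : ↥(D.monomialSubgroup F)} (hnn : n.1 * n.1 = 1) {σ : Perm (Fin D.nroots)} {u}
    (hact : hF.RootAct n.1 σ u) {a b : Fin D.rank}
    (hra : σ (hF.pF a) = hF.negF (hF.pF a)) (hrb : σ (hF.pF b) = hF.negF (hF.pF b))
    (hna : ¬ IsSquare (u (hF.pF a))) (hnb : ¬ IsSquare (u (hF.pF b)))
    (hodd' : Odd (D.cartan a (D.simple b))) :
    ∃ g ∈ D.group F, ∃ m : ↥(D.monomialSubgroup F), m.1 * m.1 = 1 ∧ g * n.1 * g⁻¹ = m.1 ∧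
      hF.rhoN F m = hF.wPerm b.2 * σ := by
  classical
  obtain ⟨g₁, hg₁, d, hd, hconj⟩ : ∃ g₁ ∈ D.group F, ∃ d : Fˣ, ¬ IsSquare d ∧
      g₁ * n.1 * g₁⁻¹ = hF.c.hG (D.simple a) (d : F) * n.1 := by
    by_cases h1 : IsSquare (-1 : Fˣ)
    · refine ⟨hF.nS a, hF.nS_mem_group a.2, -(u (hF.pF a)), ?_, ?_⟩
      · rintro ⟨s, hs⟩
        obtain ⟨r, hr⟩ := h1
        apply hna
        refine ⟨r * s, ?_⟩
        have h3 : u (hF.pF a) = (-1) * (-(u (hF.pF a))) := by simp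
        rw [h3, hs, hr]
        exact mul_mul_mul_comm r r s s
      · have h0 : ((-(u (hF.pF a)) : Fˣ) : F) = -((u (hF.pF a) : Fˣ) : F) := Units.val_neg _
        rw [h0]
        have h9 := hF.nG_one_conj hact hra
        exact h9
    · have h3 := isSquare_mul_of_not hodd h1 hna
      obtain ⟨γ, hγ⟩ := h3
      obtain ⟨A, B, hAB⟩ := exists_sum_two_sq hodd (K := F)
      have h4 : -(u (hF.pF a) : F) = (γ : F) * γ := by
        have := congrArg (fun x : Fˣ => (x : F)) hγ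
        simpa using this
      obtain ⟨g, hg, hgc⟩ := hF.conj_hneg hact hra h4 hAB
      refine ⟨g, hg, -1, h1, ?_⟩
      have h0 : ((-1 : Fˣ) : F) = -1 := Units.val_neg _
      rw [h0]
      exact hgc
  have hconj' : g₁ * n.1 * g₁⁻¹ = tor R D (Pi.mulSingle a d) * n.1 := by
    rw [hconj]
    exact congrArg (· * n.1) (hF.hSimple_eq_tor a d)
  have hmem : tor R D (Pi.mulSingle a d) * n.1 ∈ D.monomialSubgroup F :=
    Subgroup.mul_mem _ (hF.c.diagonal_le_monomial (hF.tor_mem_diagonal _)) n.2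
  let n₁ : ↥(D.monomialSubgroup F) := ⟨_, hmem⟩
  have hn₁1 : n₁.1 = tor R D (Pi.mulSingle a d) * n.1 := rfl
  have hn₁2 : n₁.1 * n₁.1 = 1 := by
    rw [hn₁1, ← hconj']
    calc g₁ * n.1 * g₁⁻¹ * (g₁ * n.1 * g₁⁻¹) = g₁ * (n.1 * n.1) * g₁⁻¹ := by group
      _ = 1 := by rw [hnn]; group
  have hact₁ : hF.RootAct n₁.1 σ (fun s => chiT D (Pi.mulSingle a d) ((σ s : Fin D.nroots) : ℕ) * u s) := by
    have h := (hF.rootAct_tor (F := F) (Pi.mulSingle a d)).mul hact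
    rw [one_mul] at h
    exact h
  have hsq : IsSquare ((fun s => chiT D (Pi.mulSingle a d) ((σ s : Fin D.nroots) : ℕ) * u s) (hF.pF b)) := by
    show IsSquare (chiT D (Pi.mulSingle a d) ((σ (hF.pF b) : Fin D.nroots) : ℕ) * u (hF.pF b))
    rw [hrb]
    show IsSquare (chiT D (Pi.mulSingle a d) (D.neg (D.simple b)) * u (hF.pF b))
    rw [hF.chiT_neg _ (hF.simple_lt b.2), hF.mulSingle_chiT]
    refine isSquare_mul_of_not hodd ?_ hnb
    intro h3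
    exact not_isSquare_zpow_of_odd hd hodd' (isSquare_inv.1 h3)
  obtain ⟨γ, hγ⟩ := hsq
  obtain ⟨m, hm1, ⟨g₂, hg₂, hm2⟩, hm3⟩ := hF.step_sq h2F hn₁2 hact₁ hrb hγ
  refine ⟨g₂ * g₁, Subgroup.mul_mem _ hg₂ hg₁, m, hm1, ?_, hm3⟩
  have h7 : g₂ * g₁ * n.1 * (g₂ * g₁)⁻¹ = g₂ * (g₁ * n.1 * g₁⁻¹) * g₂⁻¹ := by group
  rw [h7, hconj', ← hn₁1, hm2]

/-- Main reduction. -/
theorem mono_conj_torus [Fintype F] (hodd : Odd (Fintype.card F))
    (htor : ∀ c : Fin D.rank → Fˣ, (∀ j < D.rank, cartanMap D c j = 1) → c = 1)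
    (hpair : ∀ a b : Fin D.rank, a ≠ b →
      Odd (D.cartan a (D.simple b)) ∨ Odd (D.cartan b (D.simple a)) ∨ OrthP X D a b) :
    ∀ (k : ℕ) (n : ↥(D.monomialSubgroup F)), n.1 * n.1 = 1 → invF R D (hF.rhoN F n) = k →
      ∃ g ∈ D.group F, g * n.1 * g⁻¹ ∈ D.diagonalSubgroup F := by
  classical
  have h2F : (2 : F) ≠ 0 := Ring.two_ne_zero (ringChar_ne_two_of_odd hodd)
  intro k
  induction k using Nat.strong_induction_on with
  | _ k ih =>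
  intro n hnn hk
  set σ := hF.rhoN F n with hσ
  have hσW : σ ∈ hF.Wk Set.univ := hF.rhoN_mem_Wk n
  have hσσ : σ * σ = 1 := by
    rw [hσ, ← map_mul]
    have : n * n = 1 := Subtype.ext hnn
    rw [this, map_one]
  obtain ⟨u, hact⟩ := hF.rhoN_spec n
  rw [← hσ] at hact
  have hGG : ∀ {a b : GL D.Idx F}, a ∈ D.group F → b ∈ D.group F → a * b ∈ D.group F :=
    fun ha hb => Subgroup.mul_mem _ ha hb
  by_cases hk0 : k = 0
  · have h1 : σ = 1 := hF.eq_one_of_invF hσW (by omega)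
    exact ⟨1, Subgroup.one_mem _, by simpa using hF.mem_diagonal_of_rhoN_eq_one h1⟩
  by_cases hA : ∃ i : Fin D.rank, ((σ (hF.pF i) : Fin D.nroots) : ℕ) < R.N ∧ σ (hF.pF i) ≠ hF.negF (hF.pF i)
  · obtain ⟨i, h1, h2⟩ := hA
    have h3 := hF.invF_s_mul_s hσW hσσ h1 h2
    set n' : ↥(D.monomialSubgroup F) := hF.nN i.2 * n * (hF.nN i.2)⁻¹ with hn'
    have hn'1 : n'.1 = hF.nS i * n.1 * (hF.nS i)⁻¹ := rfl
    have h4 : n'.1 * n'.1 = 1 := by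
      rw [hn'1]
      calc hF.nS i * n.1 * (hF.nS i)⁻¹ * (hF.nS i * n.1 * (hF.nS i)⁻¹) = hF.nS i * (n.1 * n.1) * (hF.nS i)⁻¹ := by group
        _ = 1 := by rw [hnn]; group
    have h5 : hF.rhoN F n' = hF.wPerm i.2 * σ * hF.wPerm i.2 := by
      rw [hn', map_mul, map_mul, map_inv, hF.rhoN_nN, hF.wPerm_inv]
    obtain ⟨g, hg, h6⟩ := ih (invF R D (hF.rhoN F n')) (by rw [h5]; omega) n' h4 rfl
    refine ⟨g * hF.nS i, hGG hg (hF.nS_mem_group i.2), ?_⟩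
    have h7 : g * hF.nS i * n.1 * (g * hF.nS i)⁻¹ = g * n'.1 * g⁻¹ := by
      rw [hn'1]
      group
    rw [h7]
    exact h6
  push Not at hA
  by_cases hB : ∃ i : Fin D.rank, ((σ (hF.pF i) : Fin D.nroots) : ℕ) < R.N ∧ IsSquare (u (hF.pF i))
  · obtain ⟨i, h1, γ, hγ⟩ := hB
    obtain ⟨m, hm1, ⟨g₁, hg₁, hm2⟩, hm3⟩ := hF.step_sq h2F hnn hact (hA i h1) hγ
    have h3 := hF.invF_s_mul hσW hσσ h1
    obtain ⟨g, hg, h6⟩ := ih (invF R D (hF.rhoN F m)) (by rw [hm3]; omega) m hm1 rfl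
    refine ⟨g * g₁, hGG hg hg₁, ?_⟩
    have h7 : g * g₁ * n.1 * (g * g₁)⁻¹ = g * (g₁ * n.1 * g₁⁻¹) * g⁻¹ := by group
    rw [h7, hm2]
    exact h6
  push Not at hB
  have hdesc : ∃ i : Fin D.rank, ((σ (hF.pF i) : Fin D.nroots) : ℕ) < R.N := by
    obtain ⟨j, hj, -, hneg⟩ := hF.exists_simple_neg hσW (by omega : invF R D σ ≠ 0)
    exact ⟨⟨j, hj⟩, hneg⟩
  by_cases hC : ∃ a b : Fin D.rank, ((σ (hF.pF a) : Fin D.nroots) : ℕ) < R.N ∧
      ((σ (hF.pF b) : Fin D.nroots) : ℕ) < R.N ∧ Odd (D.cartan a (D.simple b))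
  · obtain ⟨a, b, ha, hb, hodd'⟩ := hC
    obtain ⟨g₂, hg₂, m, hm1, hm2, hm3⟩ := hF.odd_step hodd h2F hnn hact (hA a ha) (hA b hb) (hB a ha) (hB b hb) hodd'
    have h3 := hF.invF_s_mul hσW hσσ hb
    obtain ⟨g, hg, h6⟩ := ih (invF R D (hF.rhoN F m)) (by rw [hm3]; omega) m hm1 rfl
    refine ⟨g * g₂, hGG hg hg₂, ?_⟩
    have h7 : g * g₂ * n.1 * (g * g₂)⁻¹ = g * (g₂ * n.1 * g₂⁻¹) * g⁻¹ := by group
    rw [h7, hm2]
    exact h6
  push Not at hC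
  obtain ⟨i₀, hi₀⟩ := hdesc
  set J := (List.finRange D.rank).filter (fun i => decide (((σ (hF.pF i) : Fin D.nroots) : ℕ) < R.N)) with hJ
  have hmemJ : ∀ i, i ∈ J ↔ ((σ (hF.pF i) : Fin D.nroots) : ℕ) < R.N := by
    intro i
    simp [hJ]
  have hJP : J.Pairwise (OrthP X D) := by
    have h1 : J.Nodup := (List.nodup_finRange _).filter _
    refine h1.imp_of_mem ?_
    intro a b ha hb hne
    rcases hpair a b hne with h | h | h
    · exact absurd h (hC a b ((hmemJ a).1 ha) ((hmemJ b).1 hb))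
    · exact absurd h (hC b a ((hmemJ b).1 hb) ((hmemJ a).1 ha))
    · exact h
  obtain ⟨γ, hγ⟩ := hF.orth_square htor hnn hact hJP (fun i hi => hA i ((hmemJ i).1 hi))
    (fun i hi => not_lt.1 ((not_congr (hmemJ i)).1 hi)) ((hmemJ i₀).2 hi₀)
  exact absurd ⟨γ, hγ⟩ (hB i₀ hi₀)

/-- Every involution of the group is conjugate to an element of the torus. -/
theorem inv_conj_torus [Fintype F] (hodd : Odd (Fintype.card F))
    (htor : ∀ c : Fin D.rank → Fˣ, (∀ j < D.rank, cartanMap D c j = 1) → c = 1)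
    (hpair : ∀ a b : Fin D.rank, a ≠ b →
      Odd (D.cartan a (D.simple b)) ∨ Odd (D.cartan b (D.simple a)) ∨ OrthP X D a b)
    {t : GL D.Idx F} (ht : t ∈ D.group F) (h2 : t * t = 1) :
    ∃ g ∈ D.group F, g * t * g⁻¹ ∈ D.diagonalSubgroup F := by
  obtain ⟨g₁, hg₁, n, hn, hnn, e⟩ := hF.inv_conj_mono hodd ht h2
  obtain ⟨g, hg, h3⟩ := hF.mono_conj_torus hodd htor hpair _ ⟨n, hn⟩ hnn rfl
  refine ⟨g * g₁, Subgroup.mul_mem _ hg hg₁, ?_⟩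
  have h7 : g * g₁ * t * (g * g₁)⁻¹ = g * (g₁ * t * g₁⁻¹) * g⁻¹ := by group
  rw [h7, e]
  exact h3

end Full

end Cfsg.Agent.Lib.Chev
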