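import Cfsg.Agent.Lib.ChevIO.Orth

/-!
# Every involution of a Chevalley group over a field of odd order is conjugate into the torus
(when the torus is "simply connected and adjoint").
-/

namespace Cfsg.Agent.Lib.Chev

open Cfsg.Lie Matrix Equiv

section Squares

variable {K : Type*} [Field K] [Fintype K]

theorem ringChar_ne_two_of_odd (hodd : Odd (Fintype.card K)) : ringChar K ≠ 2 := by
  intro h
  have h1 := (FiniteField.even_card_iff_char_two (F := K)).1 h
  have h2 := Nat.odd_iff.1 hodd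
  omega

theorem isSquare_mul_of_not (hodd : Odd (Fintype.card K)) {x y : Kˣ} (hx : ¬ IsSquare x) (hy : ¬ IsSquare y) :
    IsSquare (x * y) := by
  have hc := ringChar_ne_two_of_odd hodd (K := K)
  rw [FiniteField.unit_isSquare_iff hc] at hx hy ⊢
  have h1 : ((x : K)) ^ (Fintype.card K / 2) = 1 ∨ ((x : K)) ^ (Fintype.card K / 2) = -1 :=
    FiniteField.pow_dichotomy hc x.ne_zero
  have h2 : ((y : K)) ^ (Fintype.card K / 2) = 1 ∨ ((y : K)) ^ (Fintype.card K / 2) = -1 :=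
    FiniteField.pow_dichotomy hc y.ne_zero
  have h3 : ((x : K)) ^ (Fintype.card K / 2) = -1 := by
    rcases h1 with h1 | h1
    · exact absurd (Units.ext (by simpa using h1)) hx
    · exact h1
  have h4 : ((y : K)) ^ (Fintype.card K / 2) = -1 := by
    rcases h2 with h2 | h2
    · exact absurd (Units.ext (by simpa using h2)) hy
    · exact h2
  apply Units.ext
  simp only [Units.val_pow_eq_pow_val, Units.val_mul, mul_pow, h3, h4, Units.val_one]
  ring

theorem not_isSquare_zpow_of_odd {G : Type*} [CommGroup G] {x : G} (hx : ¬ IsSquare x) {k : ℤ} (hk : Odd k) :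
    ¬ IsSquare (x ^ k) := by
  obtain ⟨m, rfl⟩ := hk
  rintro ⟨a, ha⟩
  apply hx
  refine ⟨a * (x ^ m)⁻¹, ?_⟩
  have h1 : x ^ (2 * m + 1) = x ^ m * x ^ m * x := by
    rw [_root_.zpow_add, two_mul, _root_.zpow_add, zpow_one]
  rw [h1] at ha
  have h2 : x = (a * a) * ((x ^ m)⁻¹ * (x ^ m)⁻¹) := by
    rw [← ha]
    group
  calc x = _ := h2
    _ = _ := by ac_rfl

theorem exists_sum_two_sq (hodd : Odd (Fintype.card K)) : ∃ A B : K, A * A + B * B = -1 := by
  have h1 := FiniteField.exists_root_sum_quadratic (R := K) (f := Polynomial.X ^ 2)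
    (g := Polynomial.X ^ 2 + 1) (by simp)
    (by compute_degree!) (Nat.odd_iff.1 hodd)
  obtain ⟨a, b, h⟩ := h1
  refine ⟨a, b, ?_⟩
  simp only [Polynomial.eval_pow, Polynomial.eval_X, Polynomial.eval_add, Polynomial.eval_one] at h
  linear_combination h

end Squares

variable {F : Type*} [Field F]
variable {T : Tabs} {X : Extra} {R : RootTab} {D : ChevalleyDatum} (hF : Full T X R D)

namespace Full

include hF

theorem rho_mul_comm_of_neg {n : ↥(D.monomialSubgroup F)} {i : Fin D.rank}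
    (h : hF.rhoN F n (hF.pF i) = hF.negF (hF.pF i)) :
    hF.wPerm i.2 * hF.rhoN F n = hF.rhoN F n * hF.wPerm i.2 := by
  obtain ⟨u, hu⟩ := hF.rhoN_spec n
  have h1 := hF.nG_one_conj hu h
  have hh : hF.c.hG (hF.pF i) (-(u (hF.pF i) : F)) ∈ D.diagonalSubgroup F :=
    hF.c.hG_mem_diagonal (hF.pF i).2 (neg_ne_zero.2 (u _).ne_zero)
  obtain ⟨c, hc⟩ := (hF.mem_diagonal_iff).1 hh
  rw [hc] at h1
  have h2 := (hF.rootAct_nS (F := F) i.2).mul hu
  have h3 := h2.mul ((hF.rootAct_nS (F := F) i.2).inv)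
  have h4 := (hF.rootAct_tor c).mul hu
  have h5 : hF.nS i * n.1 * (hF.nS i)⁻¹ = tor R D c * n.1 := h1
  rw [h5] at h3
  have h6 := h3.unique h4
  rw [one_mul, mul_inv_eq_iff_eq_mul] at h6
  exact h6

theorem PL_rho_pos {L : List (Fin D.rank)} (hL : L.Pairwise (OrthP X D)) :
    ∀ (β : Fin D.nroots), R.N ≤ (β : ℕ) → (∀ i ∈ L, β ≠ hF.pF i) →
      R.N ≤ ((hF.rhoN F ⟨hF.PL F L, hF.PL_mem L⟩ β : Fin D.nroots) : ℕ) := by
  induction L with
  | nil =>
    intro β hβ _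
    have h1 : hF.rhoN F ⟨hF.PL F [], hF.PL_mem []⟩ = 1 := map_one _
    rw [h1]
    exact hβ
  | cons l L ih =>
    rw [List.pairwise_cons] at hL
    intro β hβ hne
    have h0 : (⟨hF.PL F (l :: L), hF.PL_mem (l :: L)⟩ : ↥(D.monomialSubgroup F)) =
        ⟨hF.PL F L, hF.PL_mem L⟩ * hF.nN l.2 := by
      apply Subtype.ext
      show hF.nS l * hF.PL F L = hF.PL F L * hF.nS l
      exact (hF.PL_comm_nS (fun b hb => (hL.1 b hb).2.2)).symm
    rw [h0, map_mul, hF.rhoN_nN, Perm.mul_apply]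
    have hne0 : (β : ℕ) ≠ D.simple l := fun e => hne l List.mem_cons_self (Fin.ext e)
    have h1 := hF.wf_pos β.2 hβ l.2 hne0
    apply ih hL.2 _ h1.1
    intro i hi e
    have h2 := congrArg (fun x : Fin D.nroots => X.wf l x) e
    simp only [wPerm_apply] at h2
    rw [hF.wf_wf l.2 β.2] at h2
    have h3 : X.wf l (D.simple i) = D.simple i := (hL.1 i hi).2.1.1
    have h4 : X.wf l ((hF.pF i : Fin D.nroots) : ℕ) = D.simple i := h3
    rw [h4] at h2
    exact hne i (List.mem_cons_of_mem _ hi) (Fin.ext h2)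

/-- Orthogonal case: the scalars are squares. -/
theorem orth_square (htor : ∀ c : Fin D.rank → Fˣ, (∀ j < D.rank, cartanMap D c j = 1) → c = 1)
    {n : ↥(D.monomialSubgroup F)} (hnn : n.1 * n.1 = 1) {u} (hact : hF.RootAct n.1 (hF.rhoN F n) u)
    {L : List (Fin D.rank)} (hL : L.Pairwise (OrthP X D))
    (h1 : ∀ i ∈ L, hF.rhoN F n (hF.pF i) = hF.negF (hF.pF i))
    (h2 : ∀ i : Fin D.rank, i ∉ L → R.N ≤ ((hF.rhoN F n (hF.pF i) : Fin D.nroots) : ℕ))
    {i : Fin D.rank} (hi : i ∈ L) : ∃ γ : Fˣ, u (hF.pF i) = γ * γ := by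
  set σ := hF.rhoN F n with hσ
  set P : ↥(D.monomialSubgroup F) := ⟨hF.PL F L, hF.PL_mem L⟩ with hP
  set τ := hF.rhoN F P with hτ
  have hσσ : σ * σ = 1 := by
    rw [hσ, ← map_mul]
    have : n * n = 1 := Subtype.ext hnn
    rw [this, map_one]
  have hττ : τ * τ = 1 := by
    rw [hτ, ← map_mul]
    apply hF.rhoN_of_mem_diagonal
    show hF.PL F L * hF.PL F L ∈ _
    rw [hF.PL_sq hL]
    exact hF.tor_mem_diagonal _
  have hτinv : τ⁻¹ = τ := inv_eq_of_mul_eq_one_right hττ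
  -- the action of `τ` on the `p_i`
  have hτp : ∀ i ∈ L, τ (hF.pF i) = hF.negF (hF.pF i) := by
    intro i hi
    obtain ⟨v, hv⟩ := hF.rhoN_spec P
    have e1 := hv.conj (hF.pF i) (1 : F)
    have e2 : hF.PL F L * hF.c.xG (D.simple i) 1 * (hF.PL F L)⁻¹ = _ := hF.PL_conj_xG hL hi (1 : F)
    have e3 : hF.c.xG ((τ (hF.pF i) : Fin D.nroots) : ℕ) ((v (hF.pF i) : F) * 1) =
        hF.c.xG (D.neg (D.simple i)) (-1) := by
      rw [← e2]
      exact e1.symm
    have e4 := hF.xG_root_inj (τ (hF.pF i)).2 (hF.neg_lt (hF.simple_lt i.2))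
      (by simp) e3
    exact Fin.ext e4
  -- `σ` commutes with `τ`
  have hcomm : σ * τ = τ * σ := by
    have key : ∀ (L' : List (Fin D.rank)), (∀ l ∈ L', l ∈ L) →
        σ * hF.rhoN F ⟨hF.PL F L', hF.PL_mem L'⟩ = hF.rhoN F ⟨hF.PL F L', hF.PL_mem L'⟩ * σ := by
      intro L'
      induction L' with
      | nil =>
        intro _
        have h3 : hF.rhoN F ⟨hF.PL F [], hF.PL_mem []⟩ = 1 := map_one _
        rw [h3]
        simp
      | cons l L' ih =>
        intro hsub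
        have h0 : (⟨hF.PL F (l :: L'), hF.PL_mem (l :: L')⟩ : ↥(D.monomialSubgroup F)) =
            hF.nN l.2 * ⟨hF.PL F L', hF.PL_mem L'⟩ := rfl
        rw [h0, map_mul, hF.rhoN_nN]
        have h3 := hF.rho_mul_comm_of_neg (h1 l (hsub l List.mem_cons_self))
        rw [← mul_assoc, ← h3, mul_assoc, ih (fun b hb => hsub b (List.mem_cons_of_mem _ hb)), mul_assoc]
    exact key L (fun _ h => h)
  -- `y = n P⁻¹` is in the torus
  have hy : hF.rhoN F (n * P⁻¹) = 1 := by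
    rw [map_mul, map_inv, ← hτ, hτinv, ← hσ]
    have hW : σ * τ ∈ hF.Wk Set.univ := by
      have := hF.rhoN_mem_Wk (F := F) (n * P⁻¹)
      rwa [map_mul, map_inv, ← hτ, hτinv, ← hσ] at this
    by_contra hne
    have hinv : invF R D (σ * τ) ≠ 0 := fun h0 => hne (hF.eq_one_of_invF hW h0)
    obtain ⟨j, hj, -, hneg⟩ := hF.exists_simple_neg hW hinv
    set j' : Fin D.rank := ⟨j, hj⟩ with hj'
    have hpj : (⟨D.simple j, hF.simple_lt hj⟩ : Fin D.nroots) = hF.pF j' := rfl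
    rw [hpj] at hneg
    have hp0 : R.N ≤ ((hF.pF j' : Fin D.nroots) : ℕ) := hF.simple_ge hj
    by_cases hjL : j' ∈ L
    · rw [Perm.mul_apply, hτp j' hjL] at hneg
      have h3 : ∀ s, σ (hF.negF s) = hF.negF (σ s) := by
        obtain ⟨v, hv⟩ := hF.rhoN_spec n
        exact hv.neg_σ
      rw [h3, h1 j' hjL, hF.negF_negF] at hneg
      omega
    · rw [hcomm, Perm.mul_apply] at hneg
      have h3 := h2 j' hjL
      have h4 : ∀ i ∈ L, σ (hF.pF j') ≠ hF.pF i := by
        intro i hi e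
        have h5 := congrArg σ e
        rw [← Perm.mul_apply, hσσ, Perm.one_apply, h1 i hi] at h5
        have h6 : ((hF.negF (hF.pF i) : Fin D.nroots) : ℕ) < R.N :=
          (hF.negF_lt_iff (hF.pF i)).2 (hF.simple_ge i.2)
        rw [← h5] at h6
        omega
      have h5 := hF.PL_rho_pos (F := F) hL (σ (hF.pF j')) h3 h4
      rw [← hP, ← hτ] at h5
      omega
  have hyT : (n * P⁻¹).1 ∈ D.diagonalSubgroup F := hF.mem_diagonal_of_rhoN_eq_one hy
  obtain ⟨c, hc⟩ := (hF.mem_diagonal_iff).1 hyT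
  have hnc : n.1 = tor R D c * hF.PL F L := by
    rw [← hc]
    show n.1 = n.1 * (hF.PL F L)⁻¹ * hF.PL F L
    group
  -- the square
  have hsq : tor R D (c * (c * eL D (fun i => (chiT D c (D.simple i))⁻¹) L) * eL D (fun _ => (-1 : Fˣ)) L) =
      (1 : GL D.Idx F) := by
    rw [← tor_mul, ← tor_mul, ← hF.PL_conj_tor hL, ← hF.PL_sq hL, ← hnn]
    conv_rhs => rw [hnc]
    group
  rw [hF.tor_eq_one_iff] at hsq
  have hc1 := htor _ hsq
  have hnod : L.Nodup := hL.imp (fun h => h.1)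
  have hc2 := congrFun hc1 i
  simp only [Pi.mul_apply, Pi.one_apply, eL_apply_of_mem D _ hnod hi] at hc2
  -- the scalar
  have e1 := hact.conj (hF.pF i) (1 : F)
  rw [h1 i hi] at e1
  have e2 : n.1 * hF.c.xG (hF.pF i) 1 * n.1⁻¹ =
      tor R D c * (hF.PL F L * hF.c.xG (D.simple i) 1 * (hF.PL F L)⁻¹) * (tor R D c)⁻¹ := by
    show n.1 * hF.c.xG (D.simple i) 1 * n.1⁻¹ = _
    rw [hnc]
    group
  rw [e2, hF.PL_conj_xG hL hi, hF.tor_conj_xG c (hF.neg_lt (hF.simple_lt i.2)),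
    hF.chiT_neg c (hF.simple_lt i.2)] at e1
  have e3 := hF.xG_param_inj (hF.neg_lt (hF.simple_lt i.2)) e1
  have e4 : u (hF.pF i) = -(chiT D c (D.simple i))⁻¹ := by
    apply Units.ext
    have e5 : ((-(chiT D c (D.simple i))⁻¹ : Fˣ) : F) = (((chiT D c (D.simple i))⁻¹ : Fˣ) : F) * (-1) := by
      simp
    rw [e5]
    calc ((u (hF.pF i) : Fˣ) : F) = ((u (hF.pF i) : Fˣ) : F) * 1 := by simp
      _ = _ := e3.symm
  refine ⟨(c i)⁻¹, ?_⟩
  rw [e4]
  have e6 : (chiT D c (D.simple i))⁻¹ = -((c i)⁻¹ * (c i)⁻¹) := by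
    have : c i * (c i * (chiT D c (D.simple i))⁻¹) * (-1) = 1 := hc2
    calc (chiT D c (D.simple i))⁻¹ = (c i)⁻¹ * (c i)⁻¹ * (c i * (c i * (chiT D c (D.simple i))⁻¹)) := by group
      _ = (c i)⁻¹ * (c i)⁻¹ * (c i * (c i * (chiT D c (D.simple i))⁻¹) * (-1) * (-1)) := by simp
      _ = _ := by rw [this]; simp
  rw [e6]
  simp

end Full

end Cfsg.Agent.Lib.Chev
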