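import Cfsg.Agent.Lib.ChevIO.Red

/-!
# Products of commuting reflections in fundamental roots
-/

namespace Cfsg.Agent.Lib.Chev

open Cfsg.Lie Matrix Equiv

variable {F : Type*} [Field F]
variable {T : Tabs} {X : Extra} {R : RootTab} {D : ChevalleyDatum} (hF : Full T X R D)

/-- orthogonality of fundamental roots, in table terms -/
def OrthS (X : Extra) (D : ChevalleyDatum) (i j : Fin D.rank) : Prop :=
  X.wf i (D.simple j) = D.simple j ∧ X.eta i (D.simple j) = 1

/-- The relation on lists of fundamental roots. -/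
def OrthP (X : Extra) (D : ChevalleyDatum) (i j : Fin D.rank) : Prop :=
  i ≠ j ∧ OrthS X D i j ∧ OrthS X D j i

theorem chiT_mul (D : ChevalleyDatum) (c e : Fin D.rank → Fˣ) (s : ℕ) :
    chiT D (c * e) s = chiT D c s * chiT D e s := by
  unfold chiT
  rw [← Finset.prod_mul_distrib]
  apply Finset.prod_congr rfl
  intro i _
  rw [Pi.mul_apply, mul_zpow]

/-- The product of one-parameter subgroups along a list. -/
def eL (D : ChevalleyDatum) (f : Fin D.rank → Fˣ) (L : List (Fin D.rank)) : Fin D.rank → Fˣ :=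
  (L.map fun i => Pi.mulSingle i (f i)).prod

@[simp] theorem eL_nil (D : ChevalleyDatum) (f : Fin D.rank → Fˣ) : eL D f [] = 1 := rfl

@[simp] theorem eL_cons (D : ChevalleyDatum) (f : Fin D.rank → Fˣ) (i : Fin D.rank) (L : List (Fin D.rank)) :
    eL D f (i :: L) = Pi.mulSingle i (f i) * eL D f L := by
  simp [eL]

theorem eL_apply_of_not_mem (D : ChevalleyDatum) (f : Fin D.rank → Fˣ) {L : List (Fin D.rank)} {i : Fin D.rank}
    (h : i ∉ L) : eL D f L i = 1 := by
  induction L with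
  | nil => rfl
  | cons l L ih =>
    have h1 : i ≠ l := fun e => h (by simp [e])
    have h2 : i ∉ L := fun e => h (by simp [e])
    rw [eL_cons, Pi.mul_apply, ih h2, mul_one, Pi.mulSingle_eq_of_ne h1]

theorem eL_apply_of_mem (D : ChevalleyDatum) (f : Fin D.rank → Fˣ) {L : List (Fin D.rank)} (hL : L.Nodup)
    {i : Fin D.rank} (h : i ∈ L) : eL D f L i = f i := by
  induction L with
  | nil => simp at h
  | cons l L ih =>
    rw [List.nodup_cons] at hL
    rw [eL_cons, Pi.mul_apply]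
    rcases List.mem_cons.1 h with rfl | h1
    · rw [eL_apply_of_not_mem D f hL.1, mul_one, Pi.mulSingle_eq_same]
    · have h2 : i ≠ l := fun e => hL.1 (e ▸ h1)
      rw [ih hL.2 h1, Pi.mulSingle_eq_of_ne h2, one_mul]

namespace Full

include hF

theorem orth_cartan {i j : Fin D.rank} (h : OrthS X D i j) : D.cartan i (D.simple j) = 0 := by
  have h1 := hF.wf_rc i.2 (hF.simple_lt j.2) i.2
  rw [h.1, if_pos rfl] at h1
  omega

theorem nS_comm_xG {i j : Fin D.rank} (h : OrthS X D i j) (t : F) :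
    hF.nS i * hF.c.xG (D.simple j) t = hF.c.xG (D.simple j) t * hF.nS i := by
  have h1 := hF.nS_conj_xG (F := F) i.2 (hF.simple_lt j.2) t
  rw [h.1, h.2] at h1
  rw [mul_inv_eq_iff_eq_mul] at h1
  simpa using h1

theorem nS_comm_xG_neg {i j : Fin D.rank} (h : OrthS X D i j) (t : F) :
    hF.nS i * hF.c.xG (D.neg (D.simple j)) t = hF.c.xG (D.neg (D.simple j)) t * hF.nS i := by
  have h1 := hF.nS_conj_xG (F := F) i.2 (hF.neg_lt (hF.simple_lt j.2)) t
  rw [hF.wf_neg i.2 (hF.simple_lt j.2), hF.eta_neg i.2 (hF.simple_lt j.2), h.1, h.2] at h1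
  rw [mul_inv_eq_iff_eq_mul] at h1
  simpa using h1

theorem nS_comm_nS {i j : Fin D.rank} (h : OrthS X D i j) :
    hF.nS (F := F) i * hF.nS j = hF.nS j * hF.nS i := by
  show hF.nS (F := F) i * hF.c.nG (D.simple j) 1 = hF.c.nG (D.simple j) 1 * hF.nS i
  unfold Checks.nG
  calc hF.nS (F := F) i * (hF.c.xG (D.simple j) 1 * hF.c.xG (D.neg (D.simple j)) (-1⁻¹) * hF.c.xG (D.simple j) 1)
      = (hF.nS i * hF.c.xG (D.simple j) 1) * hF.c.xG (D.neg (D.simple j)) (-1⁻¹) * hF.c.xG (D.simple j) 1 := by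
        group
    _ = hF.c.xG (D.simple j) 1 * (hF.nS i * hF.c.xG (D.neg (D.simple j)) (-1⁻¹)) * hF.c.xG (D.simple j) 1 := by
        rw [hF.nS_comm_xG h]
        group
    _ = hF.c.xG (D.simple j) 1 * hF.c.xG (D.neg (D.simple j)) (-1⁻¹) * (hF.nS i * hF.c.xG (D.simple j) 1) := by
        rw [hF.nS_comm_xG_neg h]
        group
    _ = _ := by
        rw [hF.nS_comm_xG h]
        group

/-- The value of a character at `w_i s`. -/
theorem chiT_wf (c : Fin D.rank → Fˣ) {i s : ℕ} (hi : i < D.rank) (hs : s < D.nroots) :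
    chiT D c (X.wf i s) = chiT D c s * (chiT D c (D.simple i)) ^ (-D.cartan i s) := by
  rw [hF.chiT_eq_chr c (hF.wf_lt hi hs), hF.chiT_eq_chr c hs]
  unfold chr
  have hc : chiT D c (D.simple i) = cartanMap D c i := rfl
  rw [hc]
  have h1 : ∀ j ∈ Finset.range D.rank, cartanMap D c j ^ R.rcAt (X.wf i s) j =
      cartanMap D c j ^ R.rcAt s j * (if j = i then cartanMap D c i ^ (-D.cartan i s) else 1) := by
    intro j hj
    rw [hF.wf_rc hi hs (Finset.mem_range.1 hj)]
    by_cases hji : j = i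
    · subst hji
      simp [sub_eq_add_neg, _root_.zpow_add]
    · simp [hji]
  rw [Finset.prod_congr rfl h1, Finset.prod_mul_distrib, Finset.prod_ite_eq' (Finset.range D.rank) i,
    if_pos (Finset.mem_range.2 hi)]

/-- two torus elements with the same characters are equal -/
theorem tor_eq_of_chiT {c e : Fin D.rank → Fˣ} (h : ∀ s < D.nroots, chiT D c s = chiT D e s) :
    tor R D c = tor R D e := by
  rw [hF.tor_eq, hF.tor_eq]
  exact diagG_congr D h

theorem nS_conj_tor (i : Fin D.rank) (c : Fin D.rank → Fˣ) :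
    hF.nS i * tor R D c * (hF.nS i)⁻¹ =
      tor R D (c * Pi.mulSingle i (chiT D c (D.simple i))⁻¹) := by
  have hnorm := hF.nS_mem_normalizer (F := F) i.2
  have hmem : hF.nS i * tor R D c * (hF.nS i)⁻¹ ∈ D.diagonalSubgroup F :=
    (Subgroup.mem_set_normalizer_iff.1 hnorm _).1 (hF.tor_mem_diagonal c)
  obtain ⟨c', hc'⟩ := (hF.mem_diagonal_iff).1 hmem
  rw [hc']
  apply hF.tor_eq_of_chiT
  intro s hs
  -- compare the action on `X_s`
  have h1 := hF.tor_conj_xG c' hs (1 : F)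
  rw [← hc'] at h1
  have hA := hF.nS_inv_conj_xG (F := F) i.2 hs
  have h2 : (hF.nS i)⁻¹ * hF.c.xG s 1 * hF.nS i = hF.c.xG (X.wf i s) (((X.eta i (X.wf i s) : ℤ) : F) * 1) := hA 1
  have h3 : (hF.nS i)⁻¹ * hF.c.xG s (((chiT D c (X.wf i s) : Fˣ) : F) * 1) * hF.nS i =
      hF.c.xG (X.wf i s) (((X.eta i (X.wf i s) : ℤ) : F) * (((chiT D c (X.wf i s) : Fˣ) : F) * 1)) := hA _
  have h4 : hF.nS i * tor R D c * (hF.nS i)⁻¹ * hF.c.xG s 1 * (hF.nS i * tor R D c * (hF.nS i)⁻¹)⁻¹ =
      hF.nS i * (tor R D c * ((hF.nS i)⁻¹ * hF.c.xG s 1 * hF.nS i) * (tor R D c)⁻¹) * (hF.nS i)⁻¹ := by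
    group
  rw [h4, h2, hF.tor_conj_xG c (hF.wf_lt i.2 hs)] at h1
  have h5 : ((chiT D c (X.wf i s) : Fˣ) : F) * (((X.eta i (X.wf i s) : ℤ) : F) * 1) =
      ((X.eta i (X.wf i s) : ℤ) : F) * (((chiT D c (X.wf i s) : Fˣ) : F) * 1) := by ring
  rw [h5, ← h3] at h1
  have h6 : hF.nS i * ((hF.nS i)⁻¹ * hF.c.xG s (((chiT D c (X.wf i s) : Fˣ) : F) * 1) * hF.nS i) * (hF.nS i)⁻¹ =
      hF.c.xG s (((chiT D c (X.wf i s) : Fˣ) : F) * 1) := by group
  rw [h6] at h1
  have h7 := hF.xG_param_inj hs h1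
  have h8 : chiT D c' s = chiT D c (X.wf i s) := by
    apply Units.ext
    simpa using h7.symm
  rw [h8, chiT_mul, hF.chiT_wf c i.2 hs, hF.mulSingle_chiT]
  congr 1
  rw [_root_.inv_zpow, _root_.zpow_neg]

/-- The product of the `n_i` along a list. -/
noncomputable def PL (hF : Full T X R D) (F : Type*) [Field F] : List (Fin D.rank) → GL D.Idx F
  | [] => 1
  | i :: L => hF.nS i * PL hF F L

theorem PL_mem (L : List (Fin D.rank)) : hF.PL F L ∈ D.monomialSubgroup F := by
  induction L with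
  | nil => exact Subgroup.one_mem _
  | cons i L ih => exact Subgroup.mul_mem _ (hF.nS_mem_monomial i.2) ih

theorem PL_comm_nS {i : Fin D.rank} {L : List (Fin D.rank)} (h : ∀ l ∈ L, OrthS X D l i) :
    hF.PL F L * hF.nS i = hF.nS i * hF.PL F L := by
  induction L with
  | nil => simp [PL]
  | cons l L ih =>
    simp only [PL]
    rw [mul_assoc, ih (fun b hb => h b (List.mem_cons_of_mem _ hb)), ← mul_assoc,
      hF.nS_comm_nS (h l List.mem_cons_self), mul_assoc]

theorem PL_comm_xG {i : Fin D.rank} {L : List (Fin D.rank)} (h : ∀ l ∈ L, OrthS X D l i) (t : F) :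
    hF.PL F L * hF.c.xG (D.simple i) t = hF.c.xG (D.simple i) t * hF.PL F L := by
  induction L with
  | nil => simp [PL]
  | cons l L ih =>
    simp only [PL]
    rw [mul_assoc, ih (fun b hb => h b (List.mem_cons_of_mem _ hb)), ← mul_assoc,
      hF.nS_comm_xG (h l List.mem_cons_self), mul_assoc]

theorem PL_comm_xG_neg {i : Fin D.rank} {L : List (Fin D.rank)} (h : ∀ l ∈ L, OrthS X D l i) (t : F) :
    hF.PL F L * hF.c.xG (D.neg (D.simple i)) t = hF.c.xG (D.neg (D.simple i)) t * hF.PL F L := by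
  induction L with
  | nil => simp [PL]
  | cons l L ih =>
    simp only [PL]
    rw [mul_assoc, ih (fun b hb => h b (List.mem_cons_of_mem _ hb)), ← mul_assoc,
      hF.nS_comm_xG_neg (h l List.mem_cons_self), mul_assoc]

theorem chiT_eL_of_orth (f : Fin D.rank → Fˣ) {i : Fin D.rank} {L : List (Fin D.rank)}
    (h : ∀ l ∈ L, OrthS X D l i) : chiT D (eL D f L) (D.simple i) = 1 := by
  induction L with
  | nil =>
    simp [chiT]
  | cons l L ih =>
    rw [eL_cons, chiT_mul, ih (fun b hb => h b (List.mem_cons_of_mem _ hb)), hF.mulSingle_chiT,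
      hF.orth_cartan (h l List.mem_cons_self)]
    simp

theorem PL_conj_tor {L : List (Fin D.rank)} (hL : L.Pairwise (OrthP X D)) (c : Fin D.rank → Fˣ) :
    hF.PL F L * tor R D c * (hF.PL F L)⁻¹ =
      tor R D (c * eL D (fun i => (chiT D c (D.simple i))⁻¹) L) := by
  induction L with
  | nil => simp [PL, tor_one]
  | cons i L ih =>
    rw [List.pairwise_cons] at hL
    simp only [PL]
    have h1 : hF.nS i * hF.PL F L * tor R D c * (hF.nS i * hF.PL F L)⁻¹ =
        hF.nS i * (hF.PL F L * tor R D c * (hF.PL F L)⁻¹) * (hF.nS i)⁻¹ := by group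
    rw [h1, ih hL.2, hF.nS_conj_tor, eL_cons]
    congr 1
    have h2 : chiT D (c * eL D (fun i => (chiT D c (D.simple i))⁻¹) L) (D.simple i) = chiT D c (D.simple i) := by
      rw [chiT_mul, hF.chiT_eL_of_orth _ (fun l hl => (hL.1 l hl).2.2), mul_one]
    rw [h2]
    simp only [mul_assoc]
    congr 1
    exact mul_comm _ _

theorem PL_sq {L : List (Fin D.rank)} (hL : L.Pairwise (OrthP X D)) :
    hF.PL F L * hF.PL F L = tor R D (eL D (fun _ => (-1 : Fˣ)) L) := by
  induction L with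
  | nil => simp [PL, tor_one]
  | cons i L ih =>
    rw [List.pairwise_cons] at hL
    simp only [PL]
    have h1 := hF.PL_comm_nS (F := F) (i := i) (L := L) (fun l hl => (hL.1 l hl).2.2)
    have h2 : hF.nS i * hF.PL F L * (hF.nS i * hF.PL F L) = hF.nS i * (hF.PL F L * hF.nS i) * hF.PL F L := by group
    rw [h2, h1]
    have h3 : hF.nS i * (hF.nS i * hF.PL F L) * hF.PL F L = (hF.nS i * hF.nS i) * (hF.PL F L * hF.PL F L) := by
      group
    rw [h3, ih hL.2, hF.nS_sq_eq i.2, hF.hS_apply, tor_mul, eL_cons]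

/-- `P` sends `x_{p_i}` to `x_{-p_i}`, with the sign. -/
theorem PL_conj_xG {L : List (Fin D.rank)} (hL : L.Pairwise (OrthP X D)) {i : Fin D.rank} (hi : i ∈ L) (t : F) :
    hF.PL F L * hF.c.xG (D.simple i) t * (hF.PL F L)⁻¹ = hF.c.xG (D.neg (D.simple i)) (-t) := by
  induction L with
  | nil => simp at hi
  | cons l L ih =>
    rw [List.pairwise_cons] at hL
    simp only [PL]
    have h1 : hF.nS l * hF.PL F L * hF.c.xG (D.simple i) t * (hF.nS l * hF.PL F L)⁻¹ =
        hF.nS l * (hF.PL F L * hF.c.xG (D.simple i) t * (hF.PL F L)⁻¹) * (hF.nS l)⁻¹ := by group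
    rw [h1]
    rcases List.mem_cons.1 hi with rfl | h2
    · rw [hF.PL_comm_xG (fun b hb => (hL.1 b hb).2.2), mul_inv_cancel_right, hF.nS_conj_xG i.2 (hF.simple_lt i.2),
        hF.wf_simple i.2, hF.eta_simple i.2]
      simp
    · rw [ih hL.2 h2, hF.nS_comm_xG_neg (hL.1 i h2).2.1, mul_inv_cancel_right]

end Full

end Cfsg.Agent.Lib.Chev
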