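import Cfsg.Agent.Lib.ChevIO.Tinv
import Cfsg.Agent.Lib.OrthoThree

/-!
# Pairs of commuting `SL₂`s through an involution
-/

namespace Cfsg.Agent.Lib.Chev

open Cfsg.Lie Matrix Equiv
open Cfsg.Agent.Lib.Chev.SL2 (x0 y0 D0 n0 ext4 mem_closure_elementary)

section Pure

variable {F : Type*} [Field F] {H : Type*} [Group H]

theorem commP_of_gens (φ : SpecialLinearGroup (Fin 2) F →* H) (x : H) (h1 : ∀ t, Commute (φ (x0 t)) x)
    (h2 : ∀ t, Commute (φ (y0 t)) x) (g : SpecialLinearGroup (Fin 2) F) : Commute (φ g) x := by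
  induction (mem_closure_elementary g) using Subgroup.closure_induction with
  | mem y hy =>
    rcases hy with ⟨t, rfl⟩ | ⟨t, rfl⟩
    · exact h1 t
    · exact h2 t
  | one => rw [map_one]; exact Commute.one_left x
  | mul a b _ _ ha hb => rw [map_mul]; exact ha.mul_left hb
  | inv a _ ha => rw [map_inv]; exact ha.inv_left

theorem memP_of_gens (φ : SpecialLinearGroup (Fin 2) F →* H) (S : Subgroup H) (h1 : ∀ t, φ (x0 t) ∈ S)
    (h2 : ∀ t, φ (y0 t) ∈ S) (g : SpecialLinearGroup (Fin 2) F) : φ g ∈ S := by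
  induction (mem_closure_elementary g) using Subgroup.closure_induction with
  | mem y hy =>
    rcases hy with ⟨t, rfl⟩ | ⟨t, rfl⟩
    · exact h1 t
    · exact h2 t
  | one => rw [map_one]; exact S.one_mem
  | mul a b _ _ ha hb => rw [map_mul]; exact S.mul_mem ha hb
  | inv a _ ha => rw [map_inv]; exact S.inv_mem ha

@[simp] theorem nP_a : (n0 : SpecialLinearGroup (Fin 2) F).1 0 0 = 0 := rfl
@[simp] theorem nP_b : (n0 : SpecialLinearGroup (Fin 2) F).1 0 1 = 1 := rfl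
@[simp] theorem nP_c : (n0 : SpecialLinearGroup (Fin 2) F).1 1 0 = -1 := rfl
@[simp] theorem nP_d : (n0 : SpecialLinearGroup (Fin 2) F).1 1 1 = 0 := rfl

theorem D0_nP (c : Fˣ) : (D0 c : SpecialLinearGroup (Fin 2) F) * n0 = x0 (c : F) * y0 (-(c : F)⁻¹) * x0 (c : F) := by
  have hc : (c : F) ≠ 0 := c.ne_zero
  apply ext4 <;> simp [SL2.mul_a, SL2.mul_b, SL2.mul_c, SL2.mul_d, Units.val_inv_eq_inv_val, hc]

theorem nP_eq : (n0 : SpecialLinearGroup (Fin 2) F) = x0 1 * y0 (-1) * x0 1 := by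
  have h := D0_nP (F := F) 1
  have h1 : (D0 (1 : Fˣ) : SpecialLinearGroup (Fin 2) F) = 1 := by
    apply ext4 <;> simp
  rw [h1, one_mul] at h
  simpa using h

/-- Orders of commuting subgroups. -/
theorem card_sup_of_commute {L₁ L₂ : Subgroup H} (hc : ∀ x ∈ L₁, ∀ y ∈ L₂, x * y = y * x) :
    Nat.card ↥(L₁ ⊓ L₂) * Nat.card ↥(L₁ ⊔ L₂) = Nat.card ↥L₁ * Nat.card ↥L₂ := by
  let f : ↥L₁ × ↥L₂ →* H :=
    { toFun := fun p => p.1.1 * p.2.1
      map_one' := by simp
      map_mul' := fun p p' => by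
        show p.1.1 * p'.1.1 * (p.2.1 * p'.2.1) = p.1.1 * p.2.1 * (p'.1.1 * p'.2.1)
        have := hc p'.1.1 p'.1.2 p.2.1 p.2.2
        calc p.1.1 * p'.1.1 * (p.2.1 * p'.2.1) = p.1.1 * (p'.1.1 * p.2.1) * p'.2.1 := by group
          _ = p.1.1 * (p.2.1 * p'.1.1) * p'.2.1 := by rw [this]
          _ = _ := by group }
  have hr : f.range = L₁ ⊔ L₂ := by
    apply le_antisymm
    · rintro _ ⟨p, rfl⟩
      exact Subgroup.mul_mem _ (Subgroup.mem_sup_left p.1.2) (Subgroup.mem_sup_right p.2.2)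
    · apply sup_le
      · intro x hx
        exact ⟨(⟨x, hx⟩, 1), by simp [f]⟩
      · intro y hy
        exact ⟨(1, ⟨y, hy⟩), by simp [f]⟩
  have hk : Nat.card ↥f.ker = Nat.card ↥(L₁ ⊓ L₂) := by
    refine Nat.card_congr ⟨fun p => ⟨p.1.1.1, p.1.1.2, ?_⟩, fun x => ⟨(⟨x.1, x.2.1⟩, ⟨x.1⁻¹, Subgroup.inv_mem _ x.2.2⟩), ?_⟩, ?_, ?_⟩
    · have h1 : p.1.1.1 * p.1.2.1 = 1 := p.2
      have h2 : p.1.1.1 = p.1.2.1⁻¹ := eq_inv_of_mul_eq_one_left h1
      rw [h2]
      exact Subgroup.inv_mem _ p.1.2.2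
    · show x.1 * x.1⁻¹ = 1
      group
    · rintro ⟨⟨⟨a, ha⟩, ⟨b, hb⟩⟩, hp⟩
      have h1 : a * b = 1 := hp
      have h2 : a⁻¹ = b := inv_eq_of_mul_eq_one_right h1
      apply Subtype.ext
      apply Prod.ext
      · rfl
      · exact Subtype.ext h2
    · intro x
      rfl
  have h1 := Subgroup.card_mul_index f.ker
  rw [Subgroup.index_ker, hr, hk, Nat.card_prod] at h1
  exact h1

/-- The elements commuting with the generators are scalars. -/
theorem central_SL2 {g : SpecialLinearGroup (Fin 2) F} (h1 : g * x0 1 = x0 1 * g) (h2 : g * y0 1 = y0 1 * g) :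
    g = D0 (1 : Fˣ) ∨ g = D0 (-1 : Fˣ) := by
  have hdet := g.2
  rw [Matrix.det_fin_two] at hdet
  have a2 : (g * x0 1).1 0 0 = (x0 1 * g).1 0 0 := by rw [h1]
  have a3 : (g * x0 1).1 0 1 = (x0 1 * g).1 0 1 := by rw [h1]
  have b1 : (g * y0 1).1 0 0 = (y0 1 * g).1 0 0 := by rw [h2]
  simp only [SL2.mul_a, SL2.mul_b, SL2.x0_mul_a, SL2.x0_mul_b, SL2.y0_mul_a, SL2.x0_a, SL2.x0_b, SL2.x0_c, SL2.x0_d,
    SL2.y0_a, SL2.y0_b, SL2.y0_c, SL2.y0_d] at a2 a3 b1
  have hc : g.1 1 0 = 0 := by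
    linear_combination -a2
  have hb : g.1 0 1 = 0 := by
    linear_combination b1
  have had : g.1 0 0 = g.1 1 1 := by
    linear_combination a3
  rw [hb, hc] at hdet
  have hsq : g.1 0 0 * g.1 0 0 = 1 := by
    have h3 : g.1 0 0 * g.1 1 1 - 0 * 0 = 1 := hdet
    rw [← had] at h3
    linear_combination h3
  rcases mul_self_eq_one_iff.1 hsq with h | h
  · left
    apply ext4 <;> simp [h, hb, hc, ← had]
  · right
    apply ext4 <;> simp [h, hb, hc, ← had]

theorem D0_neg_sq : (D0 (-1 : Fˣ) : SpecialLinearGroup (Fin 2) F) * D0 (-1 : Fˣ) = 1 := by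
  apply ext4 <;> simp [SL2.mul_a, SL2.mul_b, SL2.mul_c, SL2.mul_d]

theorem D0_one : (D0 (1 : Fˣ) : SpecialLinearGroup (Fin 2) F) = 1 := by
  apply ext4 <;> simp

/-- The abstract statement. -/
theorem pair_lemma [Fintype F] (hodd : Odd (Fintype.card F)) (ψ₁ ψ₂ : SpecialLinearGroup (Fin 2) F →* H)
    (i₁ : Function.Injective ψ₁) (i₂ : Function.Injective ψ₂)
    (hc : ∀ a b, ψ₁ a * ψ₂ b = ψ₂ b * ψ₁ a) {t : H} (e₁ : ψ₁ (D0 (-1 : Fˣ)) = t) (e₂ : ψ₂ (D0 (-1 : Fˣ)) = t)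
    (hcard : Nat.card (Subgroup.centralizer ({t} : Set H)) =
      Fintype.card F ^ 2 * (Fintype.card F ^ 2 - 1) ^ 2) :
    ∃ L₁ L₂ : Subgroup H, Nonempty (L₁ ≃* SpecialLinearGroup (Fin 2) F) ∧
      Nonempty (L₂ ≃* SpecialLinearGroup (Fin 2) F) ∧ (∀ x ∈ L₁, ∀ y ∈ L₂, x * y = y * x) ∧
      L₁ ⊓ L₂ = Subgroup.zpowers t ∧ L₁ ⊔ L₂ ≤ Subgroup.centralizer ({t} : Set H) ∧
      (L₁ ⊔ L₂).relIndex (Subgroup.centralizer ({t} : Set H)) = 2 := by
  have hF1 : (-1 : Fˣ) ≠ 1 := by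
    intro e
    have h2 : (-1 : F) = 1 := by
      have := congrArg (fun x : Fˣ => (x : F)) e
      simpa using this
    have h3 : (2 : F) ≠ 0 := Ring.two_ne_zero (ringChar_ne_two_of_odd hodd)
    apply h3
    linear_combination -h2
  have hq : 1 < Fintype.card F := Fintype.one_lt_card
  have hcomm : ∀ x ∈ ψ₁.range, ∀ y ∈ ψ₂.range, x * y = y * x := by
    rintro _ ⟨a, rfl⟩ _ ⟨b, rfl⟩
    exact hc a b
  have hL₁ : Nat.card ↥ψ₁.range = Fintype.card F * (Fintype.card F ^ 2 - 1) := by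
    rw [Nat.card_congr (MonoidHom.ofInjective i₁).symm.toEquiv, Cfsg.Agent.Lib.OrthoThree.card_SL_two]
  have hL₂ : Nat.card ↥ψ₂.range = Fintype.card F * (Fintype.card F ^ 2 - 1) := by
    rw [Nat.card_congr (MonoidHom.ofInjective i₂).symm.toEquiv, Cfsg.Agent.Lib.OrthoThree.card_SL_two]
  have htmem₁ : t ∈ ψ₁.range := ⟨_, e₁⟩
  have htmem₂ : t ∈ ψ₂.range := ⟨_, e₂⟩
  have hinf : ψ₁.range ⊓ ψ₂.range = Subgroup.zpowers t := by
    apply le_antisymm
    · rintro x ⟨⟨a, rfl⟩, hy⟩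
      have h1 : a * x0 1 = x0 1 * a := by
        apply i₁
        rw [map_mul, map_mul]
        exact (hcomm _ ⟨_, rfl⟩ _ hy).symm
      have h2 : a * y0 1 = y0 1 * a := by
        apply i₁
        rw [map_mul, map_mul]
        exact (hcomm _ ⟨_, rfl⟩ _ hy).symm
      rcases central_SL2 h1 h2 with rfl | rfl
      · rw [D0_one, map_one]
        exact Subgroup.one_mem _
      · rw [e₁]
        exact Subgroup.mem_zpowers t
    · rw [Subgroup.zpowers_le]
      exact ⟨htmem₁, htmem₂⟩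
  have ht2 : orderOf t = 2 := by
    apply orderOf_eq_prime
    · rw [pow_two, ← e₁, ← map_mul, D0_neg_sq, map_one]
    · rw [← e₁]
      intro e
      have h3 : (D0 (-1 : Fˣ) : SpecialLinearGroup (Fin 2) F) = 1 := by
        apply i₁
        rw [e, map_one]
      have h4 := congrArg (fun m : SpecialLinearGroup (Fin 2) F => m.1 0 0) h3
      simp at h4
      apply hF1
      apply Units.ext
      simpa using h4
  have hcardinf : Nat.card ↥(ψ₁.range ⊓ ψ₂.range) = 2 := by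
    rw [hinf, Nat.card_zpowers, ht2]
  have hsup := card_sup_of_commute hcomm
  rw [hcardinf, hL₁, hL₂] at hsup
  have hle : ψ₁.range ⊔ ψ₂.range ≤ Subgroup.centralizer ({t} : Set H) := by
    apply sup_le
    · intro x hx
      rw [Subgroup.mem_centralizer_singleton_iff]
      exact hcomm _ hx _ htmem₂
    · intro x hx
      rw [Subgroup.mem_centralizer_singleton_iff]
      exact (hcomm _ htmem₁ _ hx).symm
  refine ⟨ψ₁.range, ψ₂.range, ⟨(MonoidHom.ofInjective i₁).symm⟩, ⟨(MonoidHom.ofInjective i₂).symm⟩, hcomm, hinf, hle, ?_⟩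
  have h5 := Subgroup.card_mul_index ((ψ₁.range ⊔ ψ₂.range).subgroupOf (Subgroup.centralizer ({t} : Set H)))
  rw [Nat.card_congr (Subgroup.subgroupOfEquivOfLe hle).toEquiv, hcard] at h5
  have h6 : Nat.card ↥(ψ₁.range ⊔ ψ₂.range) * ((ψ₁.range ⊔ ψ₂.range).subgroupOf (Subgroup.centralizer ({t} : Set H))).index =
      Nat.card ↥(ψ₁.range ⊔ ψ₂.range) * 2 := by
    rw [h5, mul_comm (Nat.card _) 2, hsup]
    ring
  have hpos : 0 < Nat.card ↥(ψ₁.range ⊔ ψ₂.range) := by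
    apply Nat.pos_of_ne_zero
    intro h7
    rw [h7, mul_zero] at hsup
    have h8 : 0 < Fintype.card F ^ 2 - 1 := Nat.sub_pos_of_lt (Nat.one_lt_pow (by norm_num) hq)
    have h9 : 0 < Fintype.card F * (Fintype.card F ^ 2 - 1) * (Fintype.card F * (Fintype.card F ^ 2 - 1)) := by
      have := Fintype.card_pos (α := F)
      positivity
    omega
  exact Nat.eq_of_mul_eq_mul_left hpos h6

end Pure

variable {F : Type*} [Field F]
variable {T : Tabs} {X : Extra} {R : RootTab} {D : ChevalleyDatum} (hF : Full T X R D)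

namespace Full

include hF

/-- Root elements commute, when the constants of the commutator formula vanish. -/
theorem xG_commuteP {r s : ℕ} (hr : r < D.nroots) (hs : s < D.nroots) (h1 : s ≠ r) (h2 : s ≠ D.neg r)
    (h3 : ∀ c ∈ D.commTerms r s, ((c.2.1 : ℤ) : F) = 0) (a b : F) :
    hF.c.xG s b * hF.c.xG r a = hF.c.xG r a * hF.c.xG s b := by
  have h4 := hF.xG_comm hr hs h1 h2 a b
  have h5 : hF.c.wordG (D.commWord F r s a b) = 1 := by
    unfold ChevalleyDatum.commWord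
    generalize D.commTerms r s = L at h3
    induction L with
    | nil => simp [Checks.wordG_nil]
    | cons c L ih =>
      rw [List.map_cons, Checks.wordG_cons, ih (fun c' hc' => h3 c' (List.mem_cons_of_mem _ hc')),
        h3 c List.mem_cons_self]
      simp
  rw [h4, h5, mul_one]

/-- The diagonal elements under a homomorphism from `SL₂`. -/
theorem phi_D0 {r : ℕ} {φ : SpecialLinearGroup (Fin 2) F →* GL D.Idx F} (hr : r < D.nroots)
    (hx : ∀ t, φ (x0 t) = hF.c.xG r t) (hy : ∀ t, φ (y0 t) = hF.c.xG (D.neg r) t) (c : Fˣ) :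
    φ (D0 c) = hF.c.hG r (c : F) := by
  have h1 : φ (D0 c * n0) = hF.c.nG r (c : F) := by
    rw [D0_nP, map_mul, map_mul, hx, hy]
    rfl
  have h2 : φ n0 = hF.c.nG r (1 : F) := by
    rw [nP_eq, map_mul, map_mul, hx, hy]
    simp [Checks.nG]
  rw [map_mul, h2] at h1
  unfold Checks.hG
  rw [hF.c.nG_neg, ← h1, mul_inv_cancel_right]

/-- The homomorphism from `SL₂` is injective -/
theorem phi_inj {r : ℕ} {φ : SpecialLinearGroup (Fin 2) F →* GL D.Idx F} (hr : r < D.nroots) (hpos : R.N ≤ r)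
    (hx : ∀ t, φ (x0 t) = hF.c.xG r t) (hy : ∀ t, φ (y0 t) = hF.c.xG (D.neg r) t)
    (hh : ∀ a : Fˣ, hF.c.hG r (a : F) = 1 → a = 1) : Function.Injective φ := by
  rw [injective_iff_map_eq_one]
  intro g hg
  have hdet := g.2
  rw [Matrix.det_fin_two] at hdet
  by_cases hc : g.1 1 0 = 0
  · rw [hc, mul_zero, sub_zero] at hdet
    have ha : g.1 0 0 ≠ 0 := left_ne_zero_of_mul_eq_one hdet
    set u : Fˣ := Units.mk0 (g.1 0 0) ha with hu
    have hd : g.1 1 1 = (g.1 0 0)⁻¹ := eq_inv_of_mul_eq_one_right hdet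
    have e : g = x0 (g.1 0 1 * g.1 0 0) * D0 u := by
      apply ext4 <;> simp [hu, SL2.mul_a, SL2.mul_b, SL2.mul_c, SL2.mul_d, hc, hd, ha, Units.val_inv_eq_inv_val]
    rw [e, map_mul, hx, hF.phi_D0 hr hx hy] at hg
    have h1 : hF.c.xG r (g.1 0 1 * g.1 0 0) = (hF.c.hG r (u : F))⁻¹ := eq_inv_of_mul_eq_one_left hg
    have h2 : hF.c.xG r (g.1 0 1 * g.1 0 0) ∈ D.posUnipotent F ⊓ D.diagonalSubgroup F :=
      ⟨hF.xG_mem_U hr hpos _, by
        rw [h1]
        exact Subgroup.inv_mem _ (hF.c.hG_mem_diagonal hr u.ne_zero)⟩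
    rw [hF.U_inf_H, Subgroup.mem_bot] at h2
    have h3 : hF.c.hG r (u : F) = 1 := by
      rw [h2] at hg
      simpa using hg
    have h4 := hh u h3
    have h5 : g.1 0 0 = 1 := by
      have := congrArg (fun x : Fˣ => (x : F)) h4
      simpa [hu] using this
    have h6 : g.1 0 1 * g.1 0 0 = 0 := by
      apply hF.xG_param_inj hr
      rw [h2, hF.c.xG_zero]
    rw [h5, mul_one] at h6
    rw [h5] at hd
    apply ext4 <;> simp [h5, h6, hc, hd]
  · exfalso
    set c := g.1 1 0 with hcc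
    set a := g.1 0 0 with haa
    set d := g.1 1 1 with hdd
    have hc' : c ≠ 0 := hc
    have e : g = x0 (a / c) * (y0 c * x0 (-c⁻¹) * y0 c) * x0 (d / c) := by
      have h9 : g.1 0 1 * c = a * d - 1 := by linear_combination -hdet
      apply ext4 <;> simp only [SL2.mul_a, SL2.mul_b, SL2.mul_c, SL2.mul_d, SL2.x0_a, SL2.x0_b, SL2.x0_c, SL2.x0_d,
        SL2.y0_a, SL2.y0_b, SL2.y0_c, SL2.y0_d] <;> field_simp <;> (try ring_nf) <;> (try done)
      · show a * c = c * a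
        ring
      · linear_combination c * h9
      · show c * c = c ^ 2
        ring
      · show d * c = c * d
        ring
    have hn : y0 c * x0 (-c⁻¹) * y0 c = (y0 c * x0 (-c⁻¹) * y0 c) := rfl
    have hnG : φ (y0 c * x0 (-c⁻¹) * y0 c) = hF.c.nG (D.neg r) c := by
      rw [map_mul, map_mul, hx, hy]
      unfold Checks.nG
      rw [hF.neg_neg hr]
    rw [e, map_mul, map_mul, hx, hx, hnG] at hg
    set n := hF.c.nG (D.neg r) c with hn'
    have hnN : n ∈ D.monomialSubgroup F := by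
      rw [hn', hF.c.nG_eq_hG_mul]
      exact Subgroup.mul_mem _ (hF.c.diagonal_le_monomial (hF.c.hG_mem_diagonal (hF.neg_lt hr) hc'))
        (hF.c.nG_mem_monomial (hF.neg_lt hr))
    have h1 : n = (hF.c.xG r (a / c))⁻¹ * (hF.c.xG r (d / c))⁻¹ := by
      have h2 : hF.c.xG r (a / c) * n = (hF.c.xG r (d / c))⁻¹ := eq_inv_of_mul_eq_one_left hg
      rw [← h2]
      group
    have h2 : n ∈ D.posUnipotent F ⊓ D.monomialSubgroup F := by
      refine ⟨?_, hnN⟩
      rw [h1]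
      exact Subgroup.mul_mem _ (Subgroup.inv_mem _ (hF.xG_mem_U hr hpos _)) (Subgroup.inv_mem _ (hF.xG_mem_U hr hpos _))
    rw [hF.U_inf_N, Subgroup.mem_bot] at h2
    have h3 := hF.nG_neg_conj hr hc' (1 : F)
    rw [← hn', h2] at h3
    simp only [one_mul, inv_one, mul_one] at h3
    have h4 := hF.xG_root_inj (hF.neg_lt hr) hr (one_ne_zero) h3
    have h5 : (D.neg r : ℕ) ≠ r := by
      have h6 := hF.neg_eq hr
      have h7 := hF.two
      omega
    exact h5 h4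

end Full

end Cfsg.Agent.Lib.Chev
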