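import Cfsg.Agent.Lib.ChevIO.Cent
import Cfsg.Agent.Lib.Chev.Orbit

/-!
# The sum over the stabiliser of an involution of the torus, along the orbit of a fundamental weight
-/

namespace Cfsg.Agent.Lib.Chev

open Cfsg.Lie Matrix Equiv
open scoped Classical

variable {T : Tabs} {X : Extra} {R : RootTab} {D : ChevalleyDatum} (hF : Full T X R D)

/-- The number of positive roots, with even coefficient at `j`, on which a function is negative. -/
noncomputable def dAE (R : RootTab) (D : ChevalleyDatum) (j : ℕ) (A : Fin D.nroots → ℤ) : ℕ :=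
  (Finset.univ.filter fun r : Fin D.nroots => R.N ≤ (r : ℕ) ∧ A r < 0 ∧ Even (R.rcAt r j)).card

namespace Full

/-- The sum over the stabiliser. -/
noncomputable def sumE (J : Set ℕ) (j q : ℕ) : ℕ :=
  ∑ σ ∈ (Finset.univ.filter fun σ : Perm (Fin D.nroots) => σ ∈ hF.Wk J ∧
      ∀ r : Fin D.nroots, (Even (R.rcAt (σ r) j) ↔ Even (R.rcAt r j))),
    q ^ invP R D (fun r => Even (R.rcAt r j)) σ

include hF

/-- Additivity for minimal coset representatives. -/
theorem invP_add {J J' : Set ℕ} (hJJ : J ⊆ J') {x : Perm (Fin D.nroots)} (hx : x ∈ hF.Wk J')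
    (hpos : ∀ (m : ℕ) (hm : m < D.rank), m ∈ J →
      R.N ≤ ((x ⟨D.simple m, hF.simple_lt hm⟩ : Fin D.nroots) : ℕ))
    {P : Fin D.nroots → Prop} (hP1 : ∀ (m : ℕ) (hm : m < D.rank), m ∈ J → P ⟨D.simple m, hF.simple_lt hm⟩)
    (hP2 : ∀ (m : ℕ) (hm : m < D.rank), m ∈ J → ∀ r, P (hF.wPerm hm r) ↔ P r) :
    ∀ (k : ℕ), ∀ u ∈ hF.Wk J, invF R D u = k → invP R D P (x * u) = invP R D P x + k := by
  intro k
  induction k with
  | zero =>
    intro u hu h0
    rw [hF.eq_one_of_invF hu h0]
    simp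
  | succ k ih =>
    intro u hu h0
    obtain ⟨i, hi, hiJ, hneg⟩ := hF.exists_simple_neg hu (by omega)
    have h3 := (hF.invF_mul hu hi).2 hneg
    have hu' : u * hF.wPerm hi ∈ hF.Wk J := Subgroup.mul_mem _ hu (hF.wPerm_mem hi hiJ)
    have h4 := ih _ hu' (by omega)
    set p : Fin D.nroots := ⟨D.simple i, hF.simple_lt hi⟩ with hp
    have h5 : (u * hF.wPerm hi) p = hF.negF (u p) := by
      rw [Perm.mul_apply, hF.wPerm_simple hi, hF.neg_comm hu]
    have h6 : R.N ≤ ((hF.negF (u p) : Fin D.nroots) : ℕ) := by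
      have h7 := hF.negF_lt_iff (hF.negF (u p))
      rw [hF.negF_negF] at h7
      exact h7.1 hneg
    have h8 : D.InRootSub J (hF.negF (u p)) := by
      refine (hF.inRootSub_iff).2 ⟨Fin.is_lt _, ?_⟩
      intro m hm hmJ
      show R.rcAt (D.neg (u p)) m = 0
      rw [hF.rc_neg (u p).2 hm, hF.rc_outside hu p hm hmJ]
      show -R.rcAt (D.simple i) m = 0
      rw [hF.simple_rc hi hm, if_neg (by rintro rfl; exact hmJ hiJ), neg_zero]
    have h9 := hF.pos_of_simple_pos hx hpos h6 h8
    have h10 : x * (u * hF.wPerm hi) ∈ hF.Wk J' :=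
      Subgroup.mul_mem _ hx (hF.Wk_mono hJJ hu')
    have h11 := hF.invP_mul h10 hi P (by
      rw [Perm.mul_apply, h5]
      exact h9)
    have h12 : x * (u * hF.wPerm hi) * hF.wPerm hi = x * u := by
      rw [mul_assoc, mul_assoc, hF.wPerm_mul_self, mul_one]
    rw [h12] at h11
    have h13 : (fun r => P (hF.wPerm hi r)) = P := by
      funext r
      exact propext (hP2 i hi hiJ r)
    rw [h13, if_pos (hP1 i hi hiJ)] at h11
    omega

/-- Inversions of the inverse, in a set of roots stable under `x`. -/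
theorem invP_inv {J : Set ℕ} {σ : Perm (Fin D.nroots)} (hσ : σ ∈ hF.Wk J) {P : Fin D.nroots → Prop}
    (hP : ∀ r, P (σ r) ↔ P r) (hN : ∀ r, P (hF.negF r) ↔ P r) :
    invP R D P σ⁻¹ = invP R D P σ := by
  have e1 : ∀ r, σ (σ⁻¹ r) = r := fun r => by simp
  have e2 : ∀ r, σ⁻¹ (σ r) = r := fun r => by simp
  have e3 : ∀ b, σ⁻¹ (hF.negF (σ b)) = hF.negF b := by
    intro b
    rw [← hF.neg_comm hσ, e2]
  have hm : ∀ (τ : Perm (Fin D.nroots)) (r : Fin D.nroots),
      r ∈ (Finset.univ.filter fun r : Fin D.nroots =>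
        R.N ≤ (r : ℕ) ∧ ((τ r : Fin D.nroots) : ℕ) < R.N ∧ P r) ↔
        R.N ≤ (r : ℕ) ∧ ((τ r : Fin D.nroots) : ℕ) < R.N ∧ P r := by
    intro τ r
    exact ⟨fun h => (Finset.mem_filter.1 h).2, fun h => Finset.mem_filter.2 ⟨Finset.mem_univ _, h⟩⟩
  unfold invP
  apply Finset.card_bij (fun r _ => hF.negF (σ⁻¹ r))
  · intro r hr
    rw [hm] at hr ⊢
    obtain ⟨h1, h2, h3⟩ := hr
    refine ⟨?_, ?_, ?_⟩
    · have := (hF.negF_lt_iff (hF.negF (σ⁻¹ r))).1 (by
        rw [hF.negF_negF]
        exact h2)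
      exact this
    · rw [hF.neg_comm hσ, e1, hF.negF_lt_iff]
      exact h1
    · rw [hN]
      have := hP (σ⁻¹ r)
      rw [e1] at this
      exact this.1 h3
  · intro a _ b _ h
    have h1 := congrArg hF.negF h
    rw [hF.negF_negF, hF.negF_negF] at h1
    exact σ⁻¹.injective h1
  · intro b hb
    rw [hm] at hb
    obtain ⟨h1, h2, h3⟩ := hb
    refine ⟨hF.negF (σ b), ?_, ?_⟩
    · rw [hm]
      refine ⟨?_, ?_, ?_⟩
      · have := (hF.negF_lt_iff (hF.negF (σ b))).1 (by
          rw [hF.negF_negF]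
          exact h2)
        exact this
      · rw [e3, hF.negF_lt_iff]
        exact h1
      · rw [hN, hP]
        exact h3
    · show hF.negF (σ⁻¹ (hF.negF (σ b))) = b
      rw [e3, hF.negF_negF]

/-- On positive roots the sign of a minimal coset representative is seen by the weight. -/
theorem neg_iff_rc {J : Set ℕ} {j : ℕ} (hj : j < D.rank) {x : Perm (Fin D.nroots)}
    (hx : x ∈ hF.Wk (insert j J))
    (hpos : ∀ (m : ℕ) (hm : m < D.rank), m ∈ J →
      R.N ≤ ((x ⟨D.simple m, hF.simple_lt hm⟩ : Fin D.nroots) : ℕ))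
    {r : Fin D.nroots} (hr : R.N ≤ (r : ℕ)) :
    ((x⁻¹ r : Fin D.nroots) : ℕ) < R.N ↔ R.rcAt (x⁻¹ r) j < 0 := by
  constructor
  · intro h1
    by_contra h2
    have h3 := hF.rc_nonpos h1 hj
    have h4 : R.rcAt (x⁻¹ r) j = 0 := by omega
    set t : Fin D.nroots := hF.negF (x⁻¹ r) with ht
    have ht1 : R.N ≤ (t : ℕ) := by
      have h7 := hF.negF_lt_iff t
      rw [ht, hF.negF_negF] at h7
      exact h7.1 h1
    have hxt : x t = hF.negF r := by
      rw [ht, hF.neg_comm hx]
      simp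
    have hxt' : ((x t : Fin D.nroots) : ℕ) < R.N := by
      rw [hxt, hF.negF_lt_iff]
      exact hr
    have hJt : D.InRootSub J t := by
      refine (hF.inRootSub_iff).2 ⟨t.2, ?_⟩
      intro k hk hkJ
      by_cases hkj : k = j
      · subst hkj
        show R.rcAt (D.neg (x⁻¹ r)) k = 0
        rw [hF.rc_neg (x⁻¹ r).2 hk, h4, neg_zero]
      · have h5 : k ∉ insert j J := by
          rintro (h | h)
          · exact hkj h
          · exact hkJ h
        have h6 := hF.rc_outside hx t hk h5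
        have h7 := hF.rc_nonpos hxt' hk
        have h8 := hF.rc_nonneg t.2 ht1 hk
        omega
    have := hF.pos_of_simple_pos hx hpos ht1 hJt
    omega
  · intro h1
    exact hF.neg_of_rc_neg (x⁻¹ r).2 hj h1

theorem even_neg_iff {j : ℕ} (hj : j < D.rank) (r : Fin D.nroots) :
    Even (R.rcAt (hF.negF r) j) ↔ Even (R.rcAt r j) := by
  show Even (R.rcAt (D.neg r) j) ↔ _
  rw [hF.rc_neg r.2 hj, even_neg]

/-- The sum over a fibre. -/
theorem fiber_sumE {J : Set ℕ} {j : ℕ} (hj : j < D.rank) (hjJ : j ∉ J) (q : ℕ) (A : Fin D.nroots → ℤ)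
    (hA : ∀ r : Fin D.nroots, (Even (A r) ↔ Even (R.rcAt r j)))
    (hne : ∃ σ ∈ hF.Wk (insert j J), (fun r => R.rcAt (σ⁻¹ r) j) = A) :
    ∑ σ ∈ (Finset.univ.filter fun σ : Perm (Fin D.nroots) => σ ∈ hF.Wk (insert j J)) with
      (fun r => R.rcAt (σ⁻¹ r) j) = A, q ^ invP R D (fun r => Even (R.rcAt r j)) σ =
      q ^ dAE R D j A * hF.poin J q := by
  set S := (Finset.univ.filter fun σ : Perm (Fin D.nroots) => σ ∈ hF.Wk (insert j J)).filter
    (fun σ => (fun r => R.rcAt (σ⁻¹ r) j) = A) with hS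
  have hmemS : ∀ σ, σ ∈ S ↔ σ ∈ hF.Wk (insert j J) ∧ (fun r => R.rcAt (σ⁻¹ r) j) = A := by
    intro σ
    simp [hS]
  have hne' : S.Nonempty := by
    obtain ⟨σ, h1, h2⟩ := hne
    exact ⟨σ, (hmemS σ).2 ⟨h1, h2⟩⟩
  obtain ⟨x, hxS, hmin⟩ := Finset.exists_min_image S (invF R D) hne'
  obtain ⟨hx1, hx2⟩ := (hmemS x).1 hxS
  have hfix : ∀ m (hm : m < D.rank), m ≠ j → ∀ s : ℕ, s < D.nroots → R.rcAt (X.wf m s) j = R.rcAt s j := by
    intro m hm hmj s hs
    rw [hF.wf_rc hm hs hj, if_neg (Ne.symm hmj), sub_zero]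
  have hpos : ∀ (m : ℕ) (hm : m < D.rank), m ∈ J →
      R.N ≤ ((x ⟨D.simple m, hF.simple_lt hm⟩ : Fin D.nroots) : ℕ) := by
    intro m hm hmJ
    by_contra hcon
    have hmj : m ≠ j := by
      rintro rfl
      exact hjJ hmJ
    have h1 := (hF.invF_mul hx1 hm).2 (not_le.1 hcon)
    have h2 : x * hF.wPerm hm ∈ S := by
      rw [hmemS]
      refine ⟨Subgroup.mul_mem _ hx1 (hF.wPerm_mem hm (Or.inr hmJ)), ?_⟩
      rw [← hx2]
      funext r
      rw [_root_.mul_inv_rev, hF.wPerm_inv, Perm.mul_apply]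
      exact hfix m hm hmj _ (Fin.is_lt _)
    have h3 := hmin _ h2
    omega
  have hJJ : J ⊆ insert j J := Set.subset_insert _ _
  have hAx : ∀ r, R.rcAt (x⁻¹ r) j = A r := fun r => congrFun hx2 r
  -- `x` preserves the parity
  have hPx : ∀ r, (Even (R.rcAt (x r) j) ↔ Even (R.rcAt r j)) := by
    intro r
    have h1 := hAx (x r)
    have h2 : x⁻¹ (x r) = r := by simp
    rw [h2] at h1
    rw [← hA, ← h1]
  -- the elements of `W_J` are in the stabiliser
  have hP1 : ∀ (m : ℕ) (hm : m < D.rank), m ∈ J →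
      Even (R.rcAt ((⟨D.simple m, hF.simple_lt hm⟩ : Fin D.nroots) : ℕ) j) := by
    intro m hm hmJ
    have hmj : m ≠ j := by
      rintro rfl
      exact hjJ hmJ
    show Even (R.rcAt (D.simple m) j)
    rw [hF.simple_rc hm hj, if_neg hmj]
    exact Even.zero
  have hP2 : ∀ (m : ℕ) (hm : m < D.rank), m ∈ J → ∀ r : Fin D.nroots,
      (Even (R.rcAt (hF.wPerm hm r) j) ↔ Even (R.rcAt r j)) := by
    intro m hm hmJ r
    have hmj : m ≠ j := by
      rintro rfl
      exact hjJ hmJ
    have h1 : R.rcAt (hF.wPerm hm r : Fin D.nroots) j = R.rcAt r j := hfix m hm hmj r r.2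
    rw [h1]
  -- rewrite the sum
  have hsum : ∑ σ ∈ S, q ^ invP R D (fun r => Even (R.rcAt r j)) σ =
      ∑ u ∈ (Finset.univ.filter fun σ : Perm (Fin D.nroots) => σ ∈ hF.Wk J),
        q ^ (invP R D (fun r => Even (R.rcAt r j)) x + invF R D u) := by
    symm
    apply Finset.sum_bij (fun u _ => x * u)
    · intro u hu
      have hu' : u ∈ hF.Wk J := by simpa using hu
      rw [hmemS]
      refine ⟨Subgroup.mul_mem _ hx1 (hF.Wk_mono hJJ hu'), ?_⟩
      rw [← hx2]
      funext r
      rw [_root_.mul_inv_rev, Perm.mul_apply]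
      exact hF.rc_outside (Subgroup.inv_mem _ hu') _ hj hjJ
    · intro a _ b _ h
      exact mul_left_cancel h
    · intro y hy
      obtain ⟨hy1, hy2⟩ := (hmemS y).1 hy
      have h1 : x⁻¹ * y ∈ hF.Wk (insert j J) := Subgroup.mul_mem _ (Subgroup.inv_mem _ hx1) hy1
      have h2 : ∀ s : Fin D.nroots, R.rcAt ((x⁻¹ * y) s) j = R.rcAt s j := by
        intro s
        have h3 : R.rcAt (x⁻¹ (y s)) j = R.rcAt (y⁻¹ (y s)) j := congrFun (hx2.trans hy2.symm) (y s)
        rw [Perm.mul_apply, h3]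
        simp
      have h3 := hF.stab_mem hj _ _ h1 rfl h2
      exact ⟨x⁻¹ * y, by simpa using h3, by simp⟩
    · intro u hu
      have hu' : u ∈ hF.Wk J := by simpa using hu
      rw [hF.invP_add hJJ hx1 hpos (P := fun r => Even (R.rcAt r j)) hP1 hP2 _ u hu' rfl]
  rw [hsum]
  simp only [pow_add]
  rw [← Finset.mul_sum, poin]
  congr 2
  -- the exponent
  have h1 := hF.invP_inv hx1 (P := fun r => Even (R.rcAt r j)) hPx (hF.even_neg_iff hj)
  rw [← h1, invP, dAE]
  congr 1
  ext r
  simp only [Finset.mem_filter, Finset.mem_univ, true_and]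
  apply and_congr_right
  intro hr
  rw [hF.neg_iff_rc hj hx1 hpos hr, hAx]

/-- One step of the factorisation. -/
theorem sumE_step {J : Set ℕ} {j : ℕ} (hj : j < D.rank) (hjJ : j ∉ J) (q : ℕ)
    (Ω : Finset (Fin D.nroots → ℤ))
    (h0 : (fun r : Fin D.nroots => R.rcAt r j) ∈ Ω)
    (hcl : ∀ A ∈ Ω, ∀ i (hi : i < D.rank), i ∈ insert j J → (fun r => A (hF.wPerm hi r)) ∈ Ω)
    (hreach : ∀ A ∈ Ω, ∃ σ ∈ hF.Wk (insert j J), (fun r => R.rcAt (σ⁻¹ r) j) = A) :
    hF.sumE (insert j J) j q =
      (∑ A ∈ Ω.filter (fun A : Fin D.nroots → ℤ => ∀ r : Fin D.nroots, (Even (A r) ↔ Even (R.rcAt r j))), q ^ dAE R D j A) * hF.poin J q := by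
  have hA_iff : ∀ σ : Perm (Fin D.nroots),
      (∀ r : Fin D.nroots, (Even (R.rcAt (σ r) j) ↔ Even (R.rcAt r j))) ↔
      ∀ r : Fin D.nroots, (Even (R.rcAt (σ⁻¹ r) j) ↔ Even (R.rcAt r j)) := by
    intro σ
    constructor
    · intro h r
      have := h (σ⁻¹ r)
      have e : σ (σ⁻¹ r) = r := by simp
      rw [e] at this
      exact this.symm
    · intro h r
      have := h (σ r)
      have e : σ⁻¹ (σ r) = r := by simp
      rw [e] at this
      exact this.symm
  have hmaps0 : ∀ σ ∈ hF.Wk (insert j J), (fun r => R.rcAt (σ⁻¹ r) j) ∈ Ω := by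
    intro σ hσ'
    refine hF.Wk_induction_left (J := insert j J)
      (p := fun σ => (fun r => R.rcAt (σ⁻¹ r) j) ∈ Ω) ?_ ?_ σ hσ'
    · simpa using h0
    · intro σ i hi hiJ ih
      have h1 := hcl _ ih i hi hiJ
      convert h1 using 2
      rw [_root_.mul_inv_rev, hF.wPerm_inv, Perm.mul_apply]
  set S := (Finset.univ.filter fun σ : Perm (Fin D.nroots) => σ ∈ hF.Wk (insert j J) ∧
      ∀ r : Fin D.nroots, (Even (R.rcAt (σ r) j) ↔ Even (R.rcAt r j))) with hS
  have hmaps : ∀ σ ∈ S, (fun r => R.rcAt (σ⁻¹ r) j) ∈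
      Ω.filter (fun A : Fin D.nroots → ℤ => ∀ r : Fin D.nroots, (Even (A r) ↔ Even (R.rcAt r j))) := by
    intro σ hσ
    have hσ' := (Finset.mem_filter.1 hσ).2
    exact Finset.mem_filter.2 ⟨hmaps0 σ hσ'.1, (hA_iff σ).1 hσ'.2⟩
  rw [sumE, ← Finset.sum_fiberwise_of_maps_to hmaps, Finset.sum_mul]
  apply Finset.sum_congr rfl
  intro A hA
  obtain ⟨hA1, hA2⟩ := Finset.mem_filter.1 hA
  rw [← hF.fiber_sumE hj hjJ q A hA2 (hreach A hA1)]
  apply Finset.sum_congr _ (fun _ _ => rfl)
  ext σ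
  simp only [hS, Finset.mem_filter, Finset.mem_univ, true_and]
  constructor
  · rintro ⟨⟨h1, _⟩, h3⟩
    exact ⟨h1, h3⟩
  · rintro ⟨h1, h3⟩
    refine ⟨⟨h1, ?_⟩, h3⟩
    rw [hA_iff]
    intro r
    have h4 : R.rcAt (σ⁻¹ r) j = A r := congrFun h3 r
    rw [h4]
    exact hA2 r

end Full

theorem allBelow_of' (f : ℕ → Bool) (n : ℕ) (h : ∀ c < n, f c = true) : allBelow f n = true := by
  induction n with
  | zero => exact allBelow_zero f
  | succ n ih =>
    exact allBelow_succ_of f n (ih (fun c hc => h c (by omega))) (h n (by omega))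

/-- Is the integer even? -/
noncomputable def intEvenB (a : ℤ) : Bool := intIsZero (Int.emod a (Int.ofNat 2))

theorem intEvenB_iff (a : ℤ) : intEvenB a = true ↔ Even a := by
  rw [intEvenB, intIsZero_iff, Int.even_iff]
  rfl

/-- Congruence of a label with the fundamental label, modulo two. -/
noncomputable def testE (l j : ℕ) (a : List ℤ) : Bool :=
  allBelow (fun k => intEvenB (Int.sub (nthZ a k)
    (Bool.rec (motive := fun _ => ℤ) (Int.ofNat 0) (Int.ofNat 1) (Nat.beq k j)))) l

/-- The number of roots `N + k`, `k < m`, with even coefficient at `j`, on which the label `a` is negative. -/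
noncomputable def cntE (R : RootTab) (j : ℕ) (a : List ℤ) (m : ℕ) : ℕ :=
  Nat.rec (motive := fun _ => ℕ) 0
    (fun k ih => Bool.rec (motive := fun _ => ℕ) ih (Nat.succ ih)
      (band (intNeg (dotZ a (Trie.find [] R.rc (Nat.add R.N k))))
        (intEvenB (nthZ (Trie.find [] R.rc (Nat.add R.N k)) j)))) m

/-- The number of roots `N + k`, `k < m`, with even coefficient at `j`. -/
noncomputable def cntEv (R : RootTab) (j : ℕ) (m : ℕ) : ℕ :=
  Nat.rec (motive := fun _ => ℕ) 0
    (fun k ih => Bool.rec (motive := fun _ => ℕ) ih (Nat.succ ih)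
      (intEvenB (nthZ (Trie.find [] R.rc (Nat.add R.N k)) j))) m

/-- The table for the sum over the stabiliser. -/
noncomputable def orbE (R : RootTab) (l j : ℕ) (L : List (List ℤ)) (dsE : List ℕ) : Bool :=
  eqLN ((L.filter (testE l j)).map (fun a => cntE R j a R.N)) dsE

namespace Full

include hF

theorem dAE_eq_cntE {a : List ℤ} (ha : a.length = D.rank) (j : ℕ) :
    dAE R D j (fun r => R.lin D.rank (nthZ a) r) = cntE R j a R.N := by
  have h2 := hF.two
  have key : ∀ m, m ≤ R.N → cntE R j a m = ((Finset.range m).filter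
      fun k => R.lin D.rank (nthZ a) (R.N + k) < 0 ∧ Even (R.rcAt (R.N + k) j)).card := by
    intro m hm
    induction m with
    | zero => simp [cntE]
    | succ m ih =>
      rw [Finset.range_add_one, Finset.filter_insert]
      have h3 := ih (by omega)
      show Bool.rec (motive := fun _ => ℕ) (cntE R j a m) (Nat.succ (cntE R j a m))
        (band (intNeg (dotZ a (Trie.find [] R.rc (R.N + m))))
          (intEvenB (nthZ (Trie.find [] R.rc (R.N + m)) j))) = _
      have h4 : dotZ a (Trie.find [] R.rc (R.N + m)) = R.lin D.rank (nthZ a) (R.N + m) := by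
        rw [dotZ_eq, ha]
        rfl
      have h4' : nthZ (Trie.find [] R.rc (R.N + m)) j = R.rcAt (R.N + m) j := rfl
      rw [h4, h4']
      by_cases h5 : R.lin D.rank (nthZ a) (R.N + m) < 0 ∧ Even (R.rcAt (R.N + m) j)
      · have h6 : band (intNeg (R.lin D.rank (nthZ a) (R.N + m))) (intEvenB (R.rcAt (R.N + m) j)) = true := by
          rw [(intNeg_iff _).2 h5.1, (intEvenB_iff _).2 h5.2]
          rfl
        rw [h6, if_pos h5, Finset.card_insert_of_notMem (by simp), h3]
      · have h6 : band (intNeg (R.lin D.rank (nthZ a) (R.N + m))) (intEvenB (R.rcAt (R.N + m) j)) = false := by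
          cases h7 : band (intNeg (R.lin D.rank (nthZ a) (R.N + m))) (intEvenB (R.rcAt (R.N + m) j)) with
          | false => rfl
          | true =>
            obtain ⟨h8, h9⟩ := band_spec h7
            exact absurd ⟨(intNeg_iff _).1 h8, (intEvenB_iff _).1 h9⟩ h5
        rw [h6, if_neg h5, h3]
  rw [key _ le_rfl, dAE]
  apply Finset.card_bij (fun (r : Fin D.nroots) _ => (r : ℕ) - R.N)
  · intro r hr
    simp only [Finset.mem_filter, Finset.mem_univ, true_and] at hr
    simp only [Finset.mem_filter, Finset.mem_range]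
    have := r.2
    refine ⟨by omega, ?_⟩
    rw [show R.N + ((r : ℕ) - R.N) = r by omega]
    exact hr.2
  · intro a' ha' b' hb' h
    simp only [Finset.mem_filter, Finset.mem_univ, true_and] at ha' hb'
    apply Fin.ext
    omega
  · intro k hk
    simp only [Finset.mem_filter, Finset.mem_range] at hk
    refine ⟨⟨R.N + k, by omega⟩, ?_, by simp⟩
    simp only [Finset.mem_filter, Finset.mem_univ, true_and]
    exact ⟨by simp, hk.2⟩

/-- Parity of a label. -/
theorem even_lin_iff {j : ℕ} (hj : j < D.rank) (a : List ℤ) :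
    (∀ r : Fin D.nroots, (Even (R.lin D.rank (nthZ a) r) ↔ Even (R.rcAt r j))) ↔
      testE D.rank j a = true := by
  have hval : ∀ k, (Bool.rec (motive := fun _ => ℤ) (Int.ofNat 0) (Int.ofNat 1) (Nat.beq k j) : ℤ) = eLab j k := by
    intro k
    by_cases hk : k = j
    · rw [hk, Trie.nat_beq_true rfl, eLab, if_pos rfl]
      rfl
    · rw [Trie.nat_beq_false hk, eLab, if_neg hk]
      rfl
  constructor
  · intro h
    refine allBelow_of' _ _ ?_
    intro k hk
    rw [intEvenB_iff]
    have h1 := h ⟨D.simple k, hF.simple_lt hk⟩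
    have h2 : R.lin D.rank (nthZ a) (D.simple k) = nthZ a k := hF.lin_simple _ hk
    simp only at h1
    rw [h2, hF.simple_rc hk hj] at h1
    show Even (nthZ a k - _)
    rw [hval, Int.even_sub, h1, eLab]
  · intro h r
    have h1 : ∀ k < D.rank, Even (nthZ a k - eLab j k) := by
      intro k hk
      have h3 := (intEvenB_iff _).1 (allBelow_spec _ _ h k hk)
      have h4 : Even (nthZ a k - (Bool.rec (motive := fun _ => ℤ) (Int.ofNat 0) (Int.ofNat 1) (Nat.beq k j) : ℤ)) := h3
      rwa [hval] at h4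
    rw [← hF.lin_eLab hj (r : ℕ), ← Int.even_sub]
    have h5 : R.lin D.rank (nthZ a) r - R.lin D.rank (eLab j) r =
        ∑ k ∈ Finset.range D.rank, (nthZ a k - eLab j k) * R.rcAt r k := by
      unfold RootTab.lin
      rw [← Finset.sum_sub_distrib]
      apply Finset.sum_congr rfl
      intro k _
      ring
    rw [h5]
    apply Finset.even_sum
    intro k hk
    exact (h1 k (Finset.mem_range.1 hk)).mul_right _

/-- One step, from the tables. -/
theorem sumE_of_orb {Ls : List ℕ} {j : ℕ} {cmT : List (List ℤ)} {L : List (List ℤ)} {par : List (ℕ × ℕ)}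
    {ds dsE : List ℕ} (hj : j < D.rank) (hjL : j ∉ Ls) (hcm : checkCm D cmT = true)
    (h : orbOK R D.rank j cmT (j :: Ls) L par ds = true) (hE : orbE R D.rank j L dsE = true) (q : ℕ) :
    hF.sumE {x | x ∈ j :: Ls} j q = (dsE.map (fun e => q ^ e)).sum * hF.poin {x | x ∈ Ls} q := by
  obtain ⟨h1, h⟩ := band_spec h
  obtain ⟨h2, h⟩ := band_spec h
  obtain ⟨h3, h⟩ := band_spec h
  obtain ⟨h4, h⟩ := band_spec h
  obtain ⟨h5, h⟩ := band_spec h
  obtain ⟨h6, h7⟩ := band_spec h
  have hcm' : ∀ i < D.rank, ∀ k < D.rank, nthZ (nthL [] cmT i) k = D.cartan i (D.simple k) := by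
    intro i hi k hk
    have := (intIsZero_iff _).1 (allBelow_spec _ _ (allBelow_spec _ _ hcm i hi) k hk)
    have h8 : nthZ (nthL [] cmT i) k - D.cartan i (D.simple k) = 0 := this
    omega
  have hlen : ∀ a ∈ L, a.length = D.rank := by
    intro a ha
    exact Nat.eq_of_beq_eq_true (allEx'_spec h2 a ha)
  have hJl : ∀ i ∈ j :: Ls, i < D.rank := by
    intro i hi
    exact Nat.le_of_ble_eq_true (allEx'_spec h6 i hi)
  -- the labels
  have hsL : ∀ a ∈ L, ∀ i, i < D.rank → ∀ k < D.rank, nthZ (sL cmT i a) k = sLab D i (nthZ a) k := by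
    intro a ha i hi k hk
    rw [sL, nthZ_zipS _ _ _ (by rw [hlen a ha]; exact hk), hcm' i hi k hk]
    rfl
  let lab : List ℤ → (Fin D.nroots → ℤ) := fun a r => R.lin D.rank (nthZ a) r
  have hlabs : ∀ a ∈ L, ∀ i (hi : i < D.rank), (fun r => lab a (hF.wPerm hi r)) = lab (sL cmT i a) := by
    intro a ha i hi
    funext r
    show R.lin D.rank (nthZ a) (X.wf i r) = R.lin D.rank (nthZ (sL cmT i a)) r
    rw [hF.lin_wf _ hi r.2]
    exact hF.lin_congr (fun k hk => (hsL a ha i hi k hk).symm) _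
  have hlabinj : ∀ a ∈ L, ∀ b ∈ L, lab a = lab b → a = b := by
    intro a ha b hb hab
    have h8 : ∀ k < D.rank, nthZ a k = nthZ b k := by
      intro k hk
      have h9 := congrFun hab ⟨D.simple k, hF.simple_lt hk⟩
      have h10 : R.lin D.rank (nthZ a) (D.simple k) = R.lin D.rank (nthZ b) (D.simple k) := h9
      rwa [hF.lin_simple _ hk, hF.lin_simple _ hk] at h10
    have hla := hlen a ha
    have hlb := hlen b hb
    exact list_ext_nthZ (by omega) (fun k hk => h8 k (by omega))
  have hnd : (L.map lab).Nodup := (ndL_spec h5).map_on (fun a ha b hb e => hlabinj a ha b hb e)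
  -- the head of the list
  have hhead : ∀ k < D.rank, nthZ (nthL [] L 0) k = eLab j k := by
    intro k hk
    have h8 := (intIsZero_iff _).1 (allBelow_spec _ _ h1 k hk)
    have h9 : nthZ (nthL [] L 0) k - (Bool.rec (motive := fun _ => ℤ) (Int.ofNat 0) (Int.ofNat 1) (Nat.beq k j)) = 0 := h8
    by_cases hkj : k = j
    · rw [hkj, Trie.nat_beq_true rfl] at h9
      rw [hkj, eLab, if_pos rfl]
      have h10 : nthZ (nthL [] L 0) j - ((Int.ofNat 1 : ℤ)) = 0 := h9
      have h11 : ((Int.ofNat 1 : ℤ)) = 1 := rfl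
      omega
    · rw [Trie.nat_beq_false hkj] at h9
      rw [eLab, if_neg hkj]
      have h10 : nthZ (nthL [] L 0) k - ((Int.ofNat 0 : ℤ)) = 0 := h9
      have h11 : ((Int.ofNat 0 : ℤ)) = 0 := rfl
      omega
  have hpos0 : 0 < L.length := by
    cases L with
    | nil =>
      have := hhead j hj
      simp [eLab] at this
    | cons _ _ => simp
  have hlab0 : lab (nthL [] L 0) = fun r : Fin D.nroots => R.rcAt r j := by
    funext r
    show R.lin D.rank (nthZ (nthL [] L 0)) r = _
    rw [hF.lin_congr hhead, hF.lin_eLab hj]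
  -- the set
  have hins : (insert j {x | x ∈ Ls} : Set ℕ) = {x | x ∈ j :: Ls} := by
    ext x
    simp
  have hstep := hF.sumE_step (J := {x | x ∈ Ls}) hj hjL q (L.map lab).toFinset ?_ ?_ ?_
  · rw [hins] at hstep
    rw [hstep]
    congr 1
    -- the filtered list
    have hfil : (L.map lab).toFinset.filter
        (fun A : Fin D.nroots → ℤ => ∀ r : Fin D.nroots, (Even (A r) ↔ Even (R.rcAt r j))) =
        ((L.filter (testE D.rank j)).map lab).toFinset := by
      ext A
      simp only [Finset.mem_filter, List.mem_toFinset, List.mem_map, List.mem_filter]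
      constructor
      · rintro ⟨⟨a, ha, rfl⟩, h8⟩
        exact ⟨a, ⟨ha, (hF.even_lin_iff hj a).1 h8⟩, rfl⟩
      · rintro ⟨a, ⟨ha, h8⟩, rfl⟩
        exact ⟨⟨a, ha, rfl⟩, (hF.even_lin_iff hj a).2 h8⟩
    have hnd' : ((L.filter (testE D.rank j)).map lab).Nodup :=
      ((ndL_spec h5).filter _).map_on (fun a ha b hb e =>
        hlabinj a (List.mem_of_mem_filter ha) b (List.mem_of_mem_filter hb) e)
    rw [hfil, List.sum_toFinset _ hnd', List.map_map, ← eqLN_spec hE, List.map_map]
    congr 1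
    apply List.map_congr_left
    intro a ha
    simp only [Function.comp]
    rw [← hF.dAE_eq_cntE (hlen a (List.mem_of_mem_filter ha)) j]
  · rw [← hlab0]
    exact List.mem_toFinset.2 (List.mem_map_of_mem (nthL_mem _ hpos0))
  · intro A hA i hi hiJ
    rw [hins] at hiJ
    obtain ⟨a, ha, rfl⟩ := List.mem_map.1 (List.mem_toFinset.1 hA)
    obtain ⟨b, hb, hb2⟩ := anyL_spec (allEx'_spec (allEx'_spec h3 a ha) i hiJ)
    rw [hlabs a ha i hi, ← eqLZ_spec hb2]
    exact List.mem_toFinset.2 (List.mem_map_of_mem hb)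
  · -- reachability
    have hreach : ∀ p, p < L.length → ∃ σ ∈ hF.Wk (insert j {x | x ∈ Ls}),
        (fun r => R.rcAt (σ⁻¹ r) j) = lab (nthL [] L p) := by
      intro p
      induction p using Nat.strong_induction_on with
      | _ p ih =>
        intro hp
        cases p with
        | zero =>
          refine ⟨1, Subgroup.one_mem _, ?_⟩
          rw [hlab0]
          funext r
          simp
        | succ p =>
          have h8 := allBelow_spec _ _ h4 p (by
            show p < L.length - 1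
            omega)
          obtain ⟨h9, h8⟩ := band_spec h8
          obtain ⟨h10, h8⟩ := band_spec h8
          set b := (nthL (0, 0) par p).1 with hb
          set i := (nthL (0, 0) par p).2 with hi
          have hbp : b < p + 1 := Nat.le_of_ble_eq_true h9
          have hiJ : i ∈ j :: Ls := memN_spec h10
          have hiR := hJl i hiJ
          obtain ⟨σ, hσ, e⟩ := ih b hbp (by omega)
          have hbL : nthL [] L b ∈ L := nthL_mem _ (by omega)
          refine ⟨hF.wPerm hiR * σ, Subgroup.mul_mem _ (hF.wPerm_mem hiR (by rw [hins]; exact hiJ)) hσ, ?_⟩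
          rw [eqLZ_spec h8, ← hlabs _ hbL i hiR, ← e]
          funext r
          rw [_root_.mul_inv_rev, hF.wPerm_inv, Perm.mul_apply]
    intro A hA
    obtain ⟨a, ha, rfl⟩ := List.mem_map.1 (List.mem_toFinset.1 hA)
    obtain ⟨k, hk, rfl⟩ := exists_nthL [] ha
    exact hreach k hk

end Full

/-- The checks for a large orbit, with tries. -/
noncomputable def orbTOK (R : RootTab) (l j : ℕ) (cmT : List (List ℤ)) (Jl : List ℕ) (T : Trie (List ℤ)) (n : ℕ)
    (nx : Trie (List ℕ)) (par : Trie (ℕ × ℕ)) (F dsE : List ℕ) : Bool :=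
  band (Nat.blt 0 n) <|
  band (allBelow (fun k => intIsZero (Int.sub (nthZ (Trie.find [] T 0) k)
    (Bool.rec (motive := fun _ => ℤ) (Int.ofNat 0) (Int.ofNat 1) (Nat.beq k j)))) l) <|
  band (allBelow (fun p => Nat.beq (Trie.find [] T p).length l) n) <|
  band (allBelow (fun p => allEx' Jl (fun i =>
    band (Nat.blt (nthL 0 (Trie.find [] nx p) i) n) <|
    eqLZ (Trie.find [] T (nthL 0 (Trie.find [] nx p) i)) (sL cmT i (Trie.find [] T p)))) n) <|
  band (allBelow (fun p =>
    band (Nat.blt (Trie.find (0, 0) par (Nat.succ p)).1 (Nat.succ p)) <|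
    band (memN (Trie.find (0, 0) par (Nat.succ p)).2 Jl) <|
    eqLZ (Trie.find [] T (Nat.succ p))
      (sL cmT (Trie.find (0, 0) par (Nat.succ p)).2 (Trie.find [] T (Trie.find (0, 0) par (Nat.succ p)).1)))
    (Nat.sub n 1)) <|
  band (allEx' Jl (fun i => Nat.blt i l)) <|
  band (allEx' F (fun p => band (Nat.blt p n) (testE l j (Trie.find [] T p)))) <|
  band (allBelow (fun p => Bool.rec (motive := fun _ => Bool) true (memN p F) (testE l j (Trie.find [] T p))) n) <|
  band (ndL (F.map (Trie.find [] T))) <|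
  eqLN (F.map (fun p => cntE R j (Trie.find [] T p) R.N)) dsE

namespace Full

include hF

/-- One step, from the tables with tries. -/
theorem sumE_of_trie {Ls : List ℕ} {j : ℕ} {cmT : List (List ℤ)} {Tt : Trie (List ℤ)} {n : ℕ}
    {nx : Trie (List ℕ)} {par : Trie (ℕ × ℕ)} {Fl dsE : List ℕ} (hj : j < D.rank) (hjL : j ∉ Ls)
    (hcm : checkCm D cmT = true) (h : orbTOK R D.rank j cmT (j :: Ls) Tt n nx par Fl dsE = true) (q : ℕ) :
    hF.sumE {x | x ∈ j :: Ls} j q = (dsE.map (fun e => q ^ e)).sum * hF.poin {x | x ∈ Ls} q := by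
  obtain ⟨h0, h⟩ := band_spec h
  obtain ⟨h1, h⟩ := band_spec h
  obtain ⟨h2, h⟩ := band_spec h
  obtain ⟨h3, h⟩ := band_spec h
  obtain ⟨h4, h⟩ := band_spec h
  obtain ⟨h6, h⟩ := band_spec h
  obtain ⟨hF1, h⟩ := band_spec h
  obtain ⟨hF2, h⟩ := band_spec h
  obtain ⟨hF3, hF4⟩ := band_spec h
  have hn : 0 < n := Nat.le_of_ble_eq_true h0
  have hcm' : ∀ i < D.rank, ∀ k < D.rank, nthZ (nthL [] cmT i) k = D.cartan i (D.simple k) := by
    intro i hi k hk
    have := (intIsZero_iff _).1 (allBelow_spec _ _ (allBelow_spec _ _ hcm i hi) k hk)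
    have h8 : nthZ (nthL [] cmT i) k - D.cartan i (D.simple k) = 0 := this
    omega
  set a : ℕ → List ℤ := Trie.find [] Tt with ha
  have hlen : ∀ p < n, (a p).length = D.rank := by
    intro p hp
    exact Nat.eq_of_beq_eq_true (allBelow_spec _ _ h2 p hp)
  have hJl : ∀ i ∈ j :: Ls, i < D.rank := by
    intro i hi
    exact Nat.le_of_ble_eq_true (allEx'_spec h6 i hi)
  -- the labels
  have hsL : ∀ p < n, ∀ i, i < D.rank → ∀ k < D.rank, nthZ (sL cmT i (a p)) k = sLab D i (nthZ (a p)) k := by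
    intro p hp i hi k hk
    rw [sL, nthZ_zipS _ _ _ (by rw [hlen p hp]; exact hk), hcm' i hi k hk]
    rfl
  let lab : List ℤ → (Fin D.nroots → ℤ) := fun a r => R.lin D.rank (nthZ a) r
  have hlabs : ∀ p < n, ∀ i (hi : i < D.rank), (fun r => lab (a p) (hF.wPerm hi r)) = lab (sL cmT i (a p)) := by
    intro p hp i hi
    funext r
    show R.lin D.rank (nthZ (a p)) (X.wf i r) = R.lin D.rank (nthZ (sL cmT i (a p))) r
    rw [hF.lin_wf _ hi r.2]
    exact hF.lin_congr (fun k hk => (hsL p hp i hi k hk).symm) _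
  have hlabinj : ∀ p < n, ∀ p' < n, lab (a p) = lab (a p') → a p = a p' := by
    intro p hp p' hp' hab
    have h8 : ∀ k < D.rank, nthZ (a p) k = nthZ (a p') k := by
      intro k hk
      have h9 := congrFun hab ⟨D.simple k, hF.simple_lt hk⟩
      have h10 : R.lin D.rank (nthZ (a p)) (D.simple k) = R.lin D.rank (nthZ (a p')) (D.simple k) := h9
      rwa [hF.lin_simple _ hk, hF.lin_simple _ hk] at h10
    have hla := hlen p hp
    have hlb := hlen p' hp'
    exact list_ext_nthZ (by omega) (fun k hk => h8 k (by omega))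
  -- the head
  have hhead : ∀ k < D.rank, nthZ (a 0) k = eLab j k := by
    intro k hk
    have h8 := (intIsZero_iff _).1 (allBelow_spec _ _ h1 k hk)
    have h9 : nthZ (a 0) k - (Bool.rec (motive := fun _ => ℤ) (Int.ofNat 0) (Int.ofNat 1) (Nat.beq k j)) = 0 := h8
    by_cases hkj : k = j
    · rw [hkj, Trie.nat_beq_true rfl] at h9
      rw [hkj, eLab, if_pos rfl]
      have h10 : nthZ (a 0) j - ((Int.ofNat 1 : ℤ)) = 0 := h9
      have h11 : ((Int.ofNat 1 : ℤ)) = 1 := rfl
      omega
    · rw [Trie.nat_beq_false hkj] at h9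
      rw [eLab, if_neg hkj]
      have h10 : nthZ (a 0) k - ((Int.ofNat 0 : ℤ)) = 0 := h9
      have h11 : ((Int.ofNat 0 : ℤ)) = 0 := rfl
      omega
  have hlab0 : lab (a 0) = fun r : Fin D.nroots => R.rcAt r j := by
    funext r
    show R.lin D.rank (nthZ (a 0)) r = _
    rw [hF.lin_congr hhead, hF.lin_eLab hj]
  have hins : (insert j {x | x ∈ Ls} : Set ℕ) = {x | x ∈ j :: Ls} := by
    ext x
    simp
  have hstep := hF.sumE_step (J := {x | x ∈ Ls}) hj hjL q
    (((List.range n).map (fun p => lab (a p))).toFinset) ?_ ?_ ?_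
  · rw [hins] at hstep
    rw [hstep]
    congr 1
    have hfil : (((List.range n).map (fun p => lab (a p))).toFinset).filter
        (fun A : Fin D.nroots → ℤ => ∀ r : Fin D.nroots, (Even (A r) ↔ Even (R.rcAt r j))) =
        ((Fl.map a).map lab).toFinset := by
      ext A
      simp only [Finset.mem_filter, List.mem_toFinset, List.mem_map, List.mem_range]
      constructor
      · rintro ⟨⟨p, hp, rfl⟩, h8⟩
        have h9 := (hF.even_lin_iff hj (a p)).1 h8
        have h10 := allBelow_spec _ _ hF2 p hp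
        have h11 : testE D.rank j (Trie.find [] Tt p) = true := h9
        rw [h11] at h10
        exact ⟨a p, ⟨p, memN_spec h10, rfl⟩, rfl⟩
      · rintro ⟨_, ⟨p, hp, rfl⟩, rfl⟩
        obtain ⟨h8, h9⟩ := band_spec (allEx'_spec hF1 p hp)
        exact ⟨⟨p, Nat.le_of_ble_eq_true h8, rfl⟩, (hF.even_lin_iff hj (a p)).2 h9⟩
    have hndF := ndL_spec hF3
    have hFn : ∀ p ∈ Fl, p < n := fun p hp => Nat.le_of_ble_eq_true (band_spec (allEx'_spec hF1 p hp)).1
    have hnd' : ((Fl.map a).map lab).Nodup := by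
      refine hndF.map_on ?_
      intro x hx y hy e
      obtain ⟨p, hp, rfl⟩ := List.mem_map.1 hx
      obtain ⟨p', hp', rfl⟩ := List.mem_map.1 hy
      exact hlabinj p (hFn p hp) p' (hFn p' hp') e
    rw [hfil, List.sum_toFinset _ hnd', List.map_map, List.map_map, ← eqLN_spec hF4, List.map_map]
    congr 1
    apply List.map_congr_left
    intro p hp
    simp only [Function.comp]
    rw [← hF.dAE_eq_cntE (hlen p (hFn p hp)) j]
  · rw [← hlab0]
    exact List.mem_toFinset.2 (List.mem_map.2 ⟨0, List.mem_range.2 hn, rfl⟩)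
  · intro A hA i hi hiJ
    rw [hins] at hiJ
    obtain ⟨p, hp, rfl⟩ := List.mem_map.1 (List.mem_toFinset.1 hA)
    have hp' := List.mem_range.1 hp
    obtain ⟨h8, h9⟩ := band_spec (allEx'_spec (allBelow_spec _ _ h3 p hp') i hiJ)
    have h10 : sL cmT i (a p) = a (nthL 0 (Trie.find [] nx p) i) := (eqLZ_spec h9).symm
    rw [hlabs p hp' i hi, h10]
    exact List.mem_toFinset.2 (List.mem_map.2 ⟨_, List.mem_range.2 (Nat.le_of_ble_eq_true h8), rfl⟩)
  · -- reachability
    have hreach : ∀ p, p < n → ∃ σ ∈ hF.Wk (insert j {x | x ∈ Ls}),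
        (fun r => R.rcAt (σ⁻¹ r) j) = lab (a p) := by
      intro p
      induction p using Nat.strong_induction_on with
      | _ p ih =>
        intro hp
        cases p with
        | zero =>
          refine ⟨1, Subgroup.one_mem _, ?_⟩
          rw [hlab0]
          funext r
          simp
        | succ p =>
          have h8 := allBelow_spec _ _ h4 p (by
            show p < n - 1
            omega)
          obtain ⟨h9, h8⟩ := band_spec h8
          obtain ⟨h10, h8⟩ := band_spec h8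
          set b := (Trie.find (0, 0) par (Nat.succ p)).1 with hb
          set i := (Trie.find (0, 0) par (Nat.succ p)).2 with hi
          have hbp : b < p + 1 := Nat.le_of_ble_eq_true h9
          have hiJ : i ∈ j :: Ls := memN_spec h10
          have hiR := hJl i hiJ
          obtain ⟨σ, hσ, e⟩ := ih b hbp (by omega)
          refine ⟨hF.wPerm hiR * σ, Subgroup.mul_mem _ (hF.wPerm_mem hiR (by rw [hins]; exact hiJ)) hσ, ?_⟩
          have h11 : a (p + 1) = sL cmT i (a b) := eqLZ_spec h8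
          rw [h11, ← hlabs b (by omega) i hiR, ← e]
          funext r
          rw [_root_.mul_inv_rev, hF.wPerm_inv, Perm.mul_apply]
    intro A hA
    obtain ⟨p, hp, rfl⟩ := List.mem_map.1 (List.mem_toFinset.1 hA)
    exact hreach p (List.mem_range.1 hp)

end Full

end Cfsg.Agent.Lib.Chev
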