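import Cfsg.Agent.Lib.ChevIO.Basic

/-!
# Reductions of involutions in `N`
-/

namespace Cfsg.Agent.Lib.Chev

open Cfsg.Lie Matrix Equiv
open Cfsg.Agent.Lib.Chev.SL2 (x0 y0 D0 n0 ext4 mem_closure_elementary)

variable {F : Type*} [Field F]
variable {T : Tabs} {X : Extra} {R : RootTab} {D : ChevalleyDatum} (hF : Full T X R D)

namespace Full

include hF

theorem exists_phi {r : ℕ} (hr : r < D.nroots) :
    ∃ φ : SpecialLinearGroup (Fin 2) F →* GL D.Idx F,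
      (∀ t, φ (x0 t) = hF.c.xG r t) ∧ (∀ t, φ (y0 t) = hF.c.xG (D.neg r) t) := by
  obtain ⟨φ, -, h⟩ := hF.exists_sl2_hom (F := F) hr
  exact ⟨φ, fun t => Units.ext (by rw [(h (x0 t) t).1 rfl, Checks.coe_xG]),
    fun t => Units.ext (by rw [(h (y0 t) t).2 rfl, Checks.coe_xG])⟩

/-- `n_{-r}(c)` acts on `X_{-r}`. -/
theorem nG_neg_conj {r : ℕ} (hr : r < D.nroots) {c : F} (hc : c ≠ 0) (s : F) :
    hF.c.nG (D.neg r) c * hF.c.xG (D.neg r) s * (hF.c.nG (D.neg r) c)⁻¹ = hF.c.xG r (-(c⁻¹ * c⁻¹) * s) := by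
  obtain ⟨φ, h1, h2⟩ := hF.exists_phi (F := F) hr
  have e : hF.c.nG (D.neg r) c = φ (y0 c * x0 (-c⁻¹) * y0 c) := by
    rw [map_mul, map_mul, h1, h2]
    unfold Checks.nG
    rw [hF.neg_neg hr]
  rw [e, ← h2, ← h1, ← map_inv, ← map_mul, ← map_mul]
  congr 1
  rw [mul_inv_eq_iff_eq_mul]
  apply Subtype.ext
  show (y0 c).1 * (x0 (-c⁻¹)).1 * (y0 c).1 * (y0 s).1 =
    (x0 (-(c⁻¹ * c⁻¹) * s)).1 * ((y0 c).1 * (x0 (-c⁻¹)).1 * (y0 c).1)
  ext i j
  fin_cases i <;> fin_cases j <;> simp [x0, y0, Matrix.mul_apply, Fin.sum_univ_two] <;> field_simp <;> (first | ring1 | simp)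

/-- `n_{-r}(c) = n_r(-c⁻¹)`. -/
theorem nG_neg_root {r : ℕ} (hr : r < D.nroots) {c : F} (hc : c ≠ 0) :
    hF.c.nG (D.neg r) c = hF.c.nG r (-c⁻¹) := by
  obtain ⟨φ, h1, h2⟩ := hF.exists_phi (F := F) hr
  have e : hF.c.nG (D.neg r) c = φ (y0 c * x0 (-c⁻¹) * y0 c) := by
    rw [map_mul, map_mul, h1, h2]
    unfold Checks.nG
    rw [hF.neg_neg hr]
  have e' : hF.c.nG r (-c⁻¹) = φ (x0 (-c⁻¹) * y0 (-(-c⁻¹)⁻¹) * x0 (-c⁻¹)) := by
    rw [map_mul, map_mul, h1, h2]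
    rfl
  rw [e, e']
  congr 1
  apply Subtype.ext
  show (y0 c).1 * (x0 (-c⁻¹)).1 * (y0 c).1 = (x0 (-c⁻¹)).1 * (y0 (-(-c⁻¹)⁻¹)).1 * (x0 (-c⁻¹)).1
  ext i j
  fin_cases i <;> fin_cases j <;> simp [x0, y0, Matrix.mul_apply, Fin.sum_univ_two] <;> field_simp <;> (first | ring1 | simp)

variable {hF} in
theorem RootAct.act_pos {n : GL D.Idx F} {σ u} (hact : hF.RootAct n σ u) {r : Fin D.nroots}
    (hr : σ r = hF.negF r) (t : F) :
    n * hF.c.xG r t * n⁻¹ = hF.c.xG (D.neg r) ((u r : F) * t) := by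
  rw [hact.conj r t, hr]
  rfl

variable {hF} in
theorem RootAct.act_neg {n : GL D.Idx F} {σ u} (hact : hF.RootAct n σ u) {r : Fin D.nroots}
    (hr : σ r = hF.negF r) (t : F) :
    n * hF.c.xG (D.neg r) t * n⁻¹ = hF.c.xG r (((u r)⁻¹ : Fˣ) * t) := by
  have h := hact.conj (hF.negF r) t
  rw [hact.neg_σ, hr, hF.negF_negF, hact.neg_u] at h
  exact h

/-- Lemma L: an involution of `N` sending `r` to `-r` with a square scalar. -/
theorem reduce_sq {n : GL D.Idx F} {σ u} (hact : hF.RootAct n σ u) (hnn : n * n = 1)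
    {r : Fin D.nroots} (hr : σ r = hF.negF r) {γ : Fˣ} (hγ : u r = γ * γ) (h2 : (2 : F) ≠ 0) :
    (hF.c.nG (D.neg r) (-(γ : F)) * n) * (hF.c.nG (D.neg r) (-(γ : F)) * n) = 1 ∧
      (hF.c.xG r ((2 * (γ : F))⁻¹) * hF.c.xG (D.neg r) (-(γ : F))) * n *
        (hF.c.xG r ((2 * (γ : F))⁻¹) * hF.c.xG (D.neg r) (-(γ : F)))⁻¹ =
        hF.c.nG (D.neg r) (-(γ : F)) * n := by
  have hγ0 : (γ : F) ≠ 0 := γ.ne_zero
  have hinv : n⁻¹ = n := inv_eq_of_mul_eq_one_right hnn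
  have hκ : ((u r : Fˣ) : F) = (γ : F) * γ := by rw [hγ]; rfl
  have hκi : (((u r)⁻¹ : Fˣ) : F) = (γ : F)⁻¹ * (γ : F)⁻¹ := by
    rw [hγ, _root_.mul_inv_rev, Units.val_mul, Units.val_inv_eq_inv_val]
  set N0 := hF.c.nG (D.neg r) (-(γ : F)) with hN0
  set m := N0 * n with hm
  set c : F := (γ : F)⁻¹ with hc
  have hc0 : c ≠ 0 := inv_ne_zero hγ0
  -- `m` inverts `X_r`
  have hinvX : ∀ s : F, m * hF.c.xG r s * m⁻¹ = hF.c.xG r (-s) := by
    intro s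
    have e : m * hF.c.xG r s * m⁻¹ = N0 * (n * hF.c.xG r s * n⁻¹) * N0⁻¹ := by
      rw [hm]
      group
    rw [e, RootAct.act_pos hact hr, hN0, hF.nG_neg_conj r.2 (neg_ne_zero.2 hγ0), hκ]
    congr 1
    field_simp
  have hxadd : ∀ a b : F, hF.c.xG r a * hF.c.xG r b = hF.c.xG r (a + b) := hF.c.xG_add r
  -- first conjugation
  have e1 : hF.c.xG (D.neg r) (-(γ : F)) * n * (hF.c.xG (D.neg r) (-(γ : F)))⁻¹ = m * hF.c.xG r c := by
    have e2 : (hF.c.xG (D.neg r) (-(γ : F)))⁻¹ = hF.c.xG (D.neg r) (γ : F) := by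
      rw [hF.c.xG_inv, _root_.neg_neg]
    have e3 : n * hF.c.xG (D.neg r) (γ : F) * n⁻¹ = hF.c.xG r c := by
      rw [RootAct.act_neg hact hr, hκi]
      congr 1
      rw [hc]
      field_simp
    have e4 : n * hF.c.xG r c = hF.c.xG (D.neg r) (γ : F) * n := by
      have e5 : n * hF.c.xG r c * n⁻¹ = hF.c.xG (D.neg r) (γ : F) := by
        rw [← e3, hinv]
        calc n * (n * hF.c.xG (D.neg r) ↑γ * n) * n = (n * n) * hF.c.xG (D.neg r) ↑γ * (n * n) := by group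
          _ = _ := by rw [hnn]; group
      rw [← e5]
      group
    have e6 : N0 = hF.c.xG (D.neg r) (-(γ : F)) * hF.c.xG r c * hF.c.xG (D.neg r) (-(γ : F)) := by
      rw [hN0]
      unfold Checks.nG
      rw [hF.neg_neg r.2, inv_neg, _root_.neg_neg]
    have e7 : hF.c.xG (D.neg r) (-(γ : F)) * hF.c.xG (D.neg r) (γ : F) = 1 := by
      rw [hF.c.xG_add, neg_add_cancel, hF.c.xG_zero]
    rw [hm, e2, mul_assoc N0, e4, e6]
    calc hF.c.xG (D.neg r) (-(γ : F)) * n * hF.c.xG (D.neg r) (γ : F)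
        = hF.c.xG (D.neg r) (-(γ : F)) * (n * hF.c.xG (D.neg r) (γ : F) * n⁻¹) * n := by group
      _ = hF.c.xG (D.neg r) (-(γ : F)) * hF.c.xG r c * n := by rw [e3]
      _ = hF.c.xG (D.neg r) (-(γ : F)) * hF.c.xG r c *
            (hF.c.xG (D.neg r) (-(γ : F)) * hF.c.xG (D.neg r) (γ : F)) * n := by rw [e7, mul_one]
      _ = _ := by group
  -- the square of `m`
  have hmm : m * m = 1 := by
    have e2 : (m * hF.c.xG r c) * (m * hF.c.xG r c) = 1 := by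
      rw [← e1]
      calc _ = hF.c.xG (D.neg r) (-(γ : F)) * (n * n) * (hF.c.xG (D.neg r) (-(γ : F)))⁻¹ := by group
        _ = 1 := by rw [hnn]; group
    have e3 : (m * hF.c.xG r c) * (m * hF.c.xG r c) =
        (m * hF.c.xG r c * m⁻¹) * (m * m) * hF.c.xG r c := by group
    rw [e3, hinvX] at e2
    have e4 : hF.c.xG r (-c) * (m * m) * hF.c.xG r c = 1 := e2
    have e5 : m * m = (hF.c.xG r (-c))⁻¹ * (hF.c.xG r c)⁻¹ := by
      have e6 : m * m = (hF.c.xG r (-c))⁻¹ * (hF.c.xG r (-c) * (m * m) * hF.c.xG r c) * (hF.c.xG r c)⁻¹ := by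
        group
      rw [e6, e4]
      group
    rw [e5, hF.c.xG_inv, hF.c.xG_inv, hxadd]
    simp
  refine ⟨hmm, ?_⟩
  -- second conjugation
  set e : F := (2 * (γ : F))⁻¹ with he
  have h2e : e + e = c := by
    rw [he, hc]
    field_simp
    ring
  have e8 : hF.c.xG r e * (m * hF.c.xG r c) * (hF.c.xG r e)⁻¹ = m := by
    have e9 : m * hF.c.xG r c = (m * hF.c.xG r c * m⁻¹) * m := by group
    rw [e9, hinvX, hF.c.xG_inv, ← h2e]
    have e10 : m * hF.c.xG r (-e) * m⁻¹ = hF.c.xG r e := by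
      rw [hinvX, _root_.neg_neg]
    have e11 : m * hF.c.xG r (-e) = hF.c.xG r e * m := by
      rw [← e10]
      group
    rw [mul_assoc, mul_assoc, e11, ← mul_assoc, ← mul_assoc]
    rw [hxadd, hxadd]
    have : e + -(e + e) + e = 0 := by ring
    rw [this, hF.c.xG_zero, one_mul]
  calc _ = hF.c.xG r e * (hF.c.xG (D.neg r) (-(γ : F)) * n * (hF.c.xG (D.neg r) (-(γ : F)))⁻¹) * (hF.c.xG r e)⁻¹ := by
        group
    _ = _ := by rw [e1, e8]

theorem hG_one {r : ℕ} : hF.c.hG r (1 : F) = 1 := by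
  unfold Checks.hG
  rw [hF.c.nG_neg, mul_inv_cancel]

theorem hG_inv_eq {r : ℕ} (hr : r < D.nroots) {a : F} (ha : a ≠ 0) : (hF.c.hG r a)⁻¹ = hF.c.hG r a⁻¹ := by
  apply inv_eq_of_mul_eq_one_right
  rw [hF.hG_mul hr ha (inv_ne_zero ha), mul_inv_cancel₀ ha, hF.hG_one]

/-- Conjugating an involution-like element by `n_r(1)`, when it sends `r` to `-r`. -/
theorem nG_one_conj {n : GL D.Idx F} {σ u} (hact : hF.RootAct n σ u) {r : Fin D.nroots}
    (hr : σ r = hF.negF r) :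
    hF.c.nG r 1 * n * (hF.c.nG r 1)⁻¹ = hF.c.hG r (-(u r : F)) * n := by
  have hκ : ((u r : Fˣ) : F) ≠ 0 := (u r).ne_zero
  have h1 := hact.conj_nG r (1 : F)
  rw [hr, mul_one] at h1
  have h2 : ((hF.negF r : Fin D.nroots) : ℕ) = D.neg r := rfl
  rw [h2, hF.nG_neg_root r.2 hκ, hF.c.nG_eq_hG_mul (r : ℕ) (-((u r : Fˣ) : F)⁻¹)] at h1
  have h3 : (hF.c.hG r (-((u r : Fˣ) : F)⁻¹))⁻¹ = hF.c.hG r (-(u r : F)) := by
    rw [hF.hG_inv_eq r.2 (neg_ne_zero.2 (inv_ne_zero hκ)), inv_neg, inv_inv]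
  rw [← h3]
  have h4 : n = hF.c.hG r (-((u r : Fˣ) : F)⁻¹) * hF.c.nG r 1 * n * (hF.c.nG r 1)⁻¹ := by
    rw [← h1]
    group
  calc hF.c.nG r 1 * n * (hF.c.nG r 1)⁻¹
      = (hF.c.hG r (-((u r : Fˣ) : F)⁻¹))⁻¹ * (hF.c.hG r (-((u r : Fˣ) : F)⁻¹) * hF.c.nG r 1 * n * (hF.c.nG r 1)⁻¹) := by
        group
    _ = _ := by rw [← h4]

/-- The `SL₂` move: when `-κ` is a square, `n` is conjugate to `h_r(-1) n`. -/
theorem conj_hneg {n : GL D.Idx F} {σ u} (hact : hF.RootAct n σ u) {r : Fin D.nroots}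
    (hr : σ r = hF.negF r) {γ : Fˣ} (hγ : -(u r : F) = (γ : F) * γ) {A B : F} (hAB : A * A + B * B = -1) :
    ∃ g ∈ D.group F, g * n * g⁻¹ = hF.c.hG r (-1) * n := by
  obtain ⟨φ, h1, h2⟩ := hF.exists_phi (F := F) r.2
  have hγ0 : (γ : F) ≠ 0 := γ.ne_zero
  have hκ : ((u r : Fˣ) : F) = -((γ : F) * γ) := by
    rw [← hγ, _root_.neg_neg]
  have hκi : (((u r)⁻¹ : Fˣ) : F) = -((γ : F)⁻¹ * (γ : F)⁻¹) := by
    rw [Units.val_inv_eq_inv_val, hκ]
    field_simp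
  let d : SpecialLinearGroup (Fin 2) F := ⟨!![0, (γ : F)⁻¹; -(γ : F), 0], by
    simp [Matrix.det_fin_two, hγ0]⟩
  have hdx : ∀ t : F, d * x0 t * d⁻¹ = y0 (((u r : Fˣ) : F) * t) := by
    intro t
    rw [mul_inv_eq_iff_eq_mul]
    apply Subtype.ext
    show d.1 * (x0 t).1 = (y0 (((u r : Fˣ) : F) * t)).1 * d.1
    ext i j
    fin_cases i <;> fin_cases j <;> simp [d, x0, y0, Matrix.mul_apply, Fin.sum_univ_two, hκ] <;>
      field_simp <;> (first | ring1 | simp)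
  have hdy : ∀ t : F, d * y0 t * d⁻¹ = x0 ((((u r)⁻¹ : Fˣ) : F) * t) := by
    intro t
    rw [mul_inv_eq_iff_eq_mul]
    apply Subtype.ext
    show d.1 * (y0 t).1 = (x0 ((((u r)⁻¹ : Fˣ) : F) * t)).1 * d.1
    ext i j
    fin_cases i <;> fin_cases j <;> simp [d, x0, y0, Matrix.mul_apply, Fin.sum_univ_two, hκi] <;>
      field_simp <;> (first | ring1 | simp)
  have hconj : ∀ g, n * φ g * n⁻¹ = φ (d * g * d⁻¹) := by
    intro g
    induction (mem_closure_elementary g) using Subgroup.closure_induction with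
    | mem y hy =>
      rcases hy with ⟨t, rfl⟩ | ⟨t, rfl⟩
      · rw [h1, RootAct.act_pos hact hr, hdx, h2]
      · rw [h2, RootAct.act_neg hact hr, hdy, h1]
    | one => simp
    | mul a b _ _ ha hb =>
      have e1 : n * φ (a * b) * n⁻¹ = (n * φ a * n⁻¹) * (n * φ b * n⁻¹) := by
        rw [map_mul]
        group
      rw [e1, ha, hb, ← map_mul]
      congr 1
      group
    | inv a _ ha =>
      have e1 : n * φ a⁻¹ * n⁻¹ = (n * φ a * n⁻¹)⁻¹ := by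
        rw [map_inv]
        group
      rw [e1, ha, ← map_inv]
      congr 1
      group
  let c : SpecialLinearGroup (Fin 2) F := ⟨!![A, B * (γ : F)⁻¹; B * γ, -A], by
    simp only [Matrix.det_fin_two_of]
    field_simp
    linear_combination -hAB⟩
  let m1 : SpecialLinearGroup (Fin 2) F := ⟨!![-1, 0; 0, -1], by simp [Matrix.det_fin_two]⟩
  have hc : c * d * c⁻¹ * d⁻¹ = m1 := by
    rw [mul_inv_eq_iff_eq_mul, mul_inv_eq_iff_eq_mul]
    apply Subtype.ext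
    show c.1 * d.1 = m1.1 * d.1 * c.1
    ext i j
    fin_cases i <;> fin_cases j <;> simp [c, d, m1, Matrix.mul_apply, Fin.sum_univ_two] <;>
      field_simp <;> (first | ring1 | simp)
  have hm1 : φ m1 = hF.c.hG r (-1) := by
    have e : hF.c.nG r (-1 : F) = φ (x0 (-1) * y0 1 * x0 (-1)) := by
      rw [map_mul, map_mul, h1, h2]
      unfold Checks.nG
      simp
    unfold Checks.hG
    rw [e, ← map_mul]
    congr 1
    apply Subtype.ext
    show m1.1 = (x0 (-1 : F)).1 * (y0 (1 : F)).1 * (x0 (-1 : F)).1 * ((x0 (-1 : F)).1 * (y0 (1 : F)).1 * (x0 (-1 : F)).1)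
    ext i j
    fin_cases i <;> fin_cases j <;> simp [m1, x0, y0, Matrix.mul_apply, Fin.sum_univ_two]
  have hcG : ∀ g, φ g ∈ D.group F := by
    intro g
    induction (mem_closure_elementary g) using Subgroup.closure_induction with
    | mem y hy =>
      rcases hy with ⟨t, rfl⟩ | ⟨t, rfl⟩
      · rw [h1]
        exact hF.c.xG_mem_group r.2 t
      · rw [h2]
        exact hF.c.xG_mem_group (hF.neg_lt r.2) t
    | one => rw [map_one]; exact Subgroup.one_mem _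
    | mul a b _ _ ha hb => rw [map_mul]; exact Subgroup.mul_mem _ ha hb
    | inv a _ ha => rw [map_inv]; exact Subgroup.inv_mem _ ha
  refine ⟨φ c, hcG c, ?_⟩
  have e2 : n * (φ c)⁻¹ * n⁻¹ = φ (d * c⁻¹ * d⁻¹) := by
    rw [← map_inv, hconj]
  calc φ c * n * (φ c)⁻¹ = φ c * (n * (φ c)⁻¹ * n⁻¹) * n := by group
    _ = φ (c * (d * c⁻¹ * d⁻¹)) * n := by rw [e2, ← map_mul]
    _ = _ := by
      rw [← hm1, ← hc]
      congr 2
      group

end Full

end Cfsg.Agent.Lib.Chev
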