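import Cfsg.Agent.Lib.ChevIO.Tinv
import Cfsg.Agent.Lib.Chev.OrbG2
import Cfsg.Agent.Lib.Chev.Smith

namespace Cfsg.Agent.Lib.Chev.TabG2Inv
open Cfsg.Agent.Lib.Chev Cfsg.Lie

set_option maxRecDepth 100000

noncomputable def dsE1 : List ℕ := [0,1]
theorem okE1 : orbE RootG2T.R chevG2.rank 1 OrbG2.L1 dsE1 = true := by decide +kernel
theorem nE1 : cntEv RootG2T.R 1 RootG2T.R.N = 2 := by decide +kernel
theorem hrep1 : ∀ k < chevG2.rank, (intEvenB (parN chevG2 1 k chevG2.rank) = true ↔ k ≠ 1) := by decide +kernel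
noncomputable def W : List (List ℕ) := [[],[],[0,1],[1]]
theorem hW : ∀ n < 2 ^ chevG2.rank, n ≠ 0 → (∀ i ∈ nthL [] W n, i < chevG2.rank) ∧ runW chevG2 (nthL [] W n) n ∈ [1] := by decide +kernel

end Cfsg.Agent.Lib.Chev.TabG2Inv
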