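import Cfsg.Agent.Lib.ChevIO.PoinE
import Cfsg.Agent.Lib.Chev.TorusCard
import Cfsg.Agent.Lib.Chev.Chain

/-!
# Involutions of the torus, and the order of their centralisers
-/

namespace Cfsg.Agent.Lib.Chev

open Cfsg.Lie Matrix Equiv

variable {F : Type*} [Field F]
variable {T : Tabs} {X : Extra} {R : RootTab} {D : ChevalleyDatum} (hF : Full T X R D)

/-- The signs given by the bits of `n`. -/
noncomputable def cM (D : ChevalleyDatum) (F : Type*) [Field F] (n : ℕ) : Fin D.rank → Fˣ :=
  fun i => if n.testBit i then -1 else 1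

/-- The exponent of the character of `cM n` at the fundamental root `k`. -/
noncomputable def parN (D : ChevalleyDatum) (n k m : ℕ) : ℤ :=
  Nat.rec (motive := fun _ => ℤ) (Int.ofNat 0)
    (fun i ih => Int.add ih (Bool.rec (motive := fun _ => ℤ) (Int.ofNat 0) (D.cartan i (D.simple k)) (n.testBit i))) m

/-- One reflection, on the bits. -/
noncomputable def stepN (D : ChevalleyDatum) (k n : ℕ) : ℕ :=
  Bool.rec (motive := fun _ => ℕ) (Nat.xor n (2 ^ k)) n (intEvenB (parN D n k D.rank))

/-- A word of reflections, on the bits. -/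
noncomputable def runW (D : ChevalleyDatum) : List ℕ → ℕ → ℕ
  | [], n => n
  | i :: w, n => runW D w (stepN D i n)

theorem parN_eq (D : ChevalleyDatum) (n k m : ℕ) :
    parN D n k m = ∑ i ∈ Finset.range m, (if n.testBit i then D.cartan i (D.simple k) else 0) := by
  induction m with
  | zero => rfl
  | succ m ih =>
    rw [Finset.sum_range_succ, ← ih]
    show parN D n k m + (Bool.rec (motive := fun _ => ℤ) (Int.ofNat 0) (D.cartan m (D.simple k)) (n.testBit m)) = _
    congr 1
    cases n.testBit m <;> rfl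

theorem chiT_cM (D : ChevalleyDatum) (F : Type*) [Field F] (n k : ℕ) :
    chiT D (cM D F n) (D.simple k) = (-1 : Fˣ) ^ parN D n k D.rank := by
  unfold chiT
  have h1 : ∀ i : Fin D.rank, cM D F n i ^ D.cartan i (D.simple k) =
      (-1 : Fˣ) ^ (if n.testBit i then D.cartan i (D.simple k) else 0) := by
    intro i
    unfold cM
    by_cases h : n.testBit i = true
    · simp [h]
    · simp [h]
  simp_rw [h1]
  rw [prod_zpow_eq_zpow_sum', parN_eq]
  congr 1
  exact Fin.sum_univ_eq_sum_range (fun i => if n.testBit i = true then D.cartan i (D.simple k) else 0) D.rank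

namespace Full

include hF

/-- Reflections on the elements of order two of the torus. -/
theorem nS_conj_cM {k : ℕ} (hk : k < D.rank) (n : ℕ) :
    hF.nS k * tor R D (cM D F n) * (hF.nS k)⁻¹ = tor R D (cM D F (stepN D k n)) := by
  have h1 := hF.nS_conj_tor (⟨k, hk⟩ : Fin D.rank) (cM D F n)
  simp only at h1
  rw [h1, chiT_cM]
  congr 1
  funext i
  rw [Pi.mul_apply]
  unfold stepN
  by_cases h2 : Even (parN D n k D.rank)
  · rw [(intEvenB_iff _).2 h2, h2.neg_one_zpow, inv_one, Pi.mulSingle_one, Pi.one_apply, mul_one]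
  · have h3 : intEvenB (parN D n k D.rank) = false := by
      cases h : intEvenB (parN D n k D.rank) with
      | false => rfl
      | true => exact absurd ((intEvenB_iff _).1 h) h2
    rw [h3, (Int.not_even_iff_odd.1 h2).neg_one_zpow]
    show _ = cM D F (n ^^^ 2 ^ k) i
    unfold cM
    rw [Nat.testBit_xor, Nat.testBit_two_pow]
    by_cases hik : i = (⟨k, hk⟩ : Fin D.rank)
    · subst hik
      rw [Pi.mulSingle_eq_same]
      by_cases h5 : n.testBit k = true
      · simp [h5]
      · simp [h5]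
    · rw [Pi.mulSingle_eq_of_ne hik, mul_one]
      have h6 : k ≠ (i : ℕ) := fun e => hik (Fin.ext e.symm)
      simp [h6]

/-- A word of reflections. -/
theorem exists_conj_runW (w : List ℕ) (hw : ∀ i ∈ w, i < D.rank) (n : ℕ) :
    ∃ g ∈ D.group F, g * tor R D (cM D F n) * g⁻¹ = tor R D (cM D F (runW D w n)) := by
  induction w generalizing n with
  | nil => exact ⟨1, Subgroup.one_mem _, by simp [runW]⟩
  | cons i w ih =>
    have hi := hw i (by simp)
    obtain ⟨g, hg, e⟩ := ih (fun a ha => hw a (by simp [ha])) (stepN D i n)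
    refine ⟨g * hF.nS i, Subgroup.mul_mem _ hg (hF.nS_mem_group hi), ?_⟩
    show _ = tor R D (cM D F (runW D w (stepN D i n)))
    rw [← e, ← hF.nS_conj_cM hi n]
    group

/-- The bits of a vector of signs. -/
theorem exists_cM [Fintype F] {c : Fin D.rank → Fˣ} (hc : c * c = 1) :
    ∃ n < 2 ^ D.rank, c = cM D F n := by
  classical
  refine ⟨Nat.ofBits (fun i => decide (c i = -1)), Nat.ofBits_lt_two_pow _, ?_⟩
  funext i
  unfold cM
  rw [Nat.testBit_ofBits_lt _ _ i.2]
  have h1 : c i * c i = 1 := congrFun hc i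
  by_cases h2 : c i = -1
  · simp [h2]
  · have h3 : c i = 1 := by
      have h4 : ((c i : Fˣ) : F) * (c i : F) = 1 := by
        rw [← Units.val_mul, h1, Units.val_one]
      have h5 : ((c i : Fˣ) : F) = 1 ∨ ((c i : Fˣ) : F) = -1 := mul_self_eq_one_iff.1 h4
      rcases h5 with h5 | h5
      · exact Units.ext h5
      · exact absurd (Units.ext (by rw [h5, Units.val_neg, Units.val_one])) h2
    simp [h2, h3]

/-- `tor c = 1` and the values of the fundamental characters. -/
theorem cartanMap_of_tor_eq_one {c : Fin D.rank → Fˣ} (h : tor R D c = (1 : GL D.Idx F)) :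
    ∀ j < D.rank, cartanMap D c j = 1 := by
  intro j hj
  have h1 := hF.tor_conj_xG c (hF.simple_lt hj) (1 : F)
  rw [h] at h1
  simp only [one_mul, inv_one, mul_one] at h1
  have h2 := hF.xG_param_inj (hF.simple_lt hj) h1
  apply Units.ext
  exact h2.symm

/-- An injectivity statement, from a Smith form with trivial invariants. -/
theorem htor_of_smith {P P' Q Q' : List (List ℤ)} {δ : List ℤ}
    (hS : SmithForm D P P' Q Q' δ) (hδ : ∀ i < D.rank, nthZ δ i = 1) (c : Fin D.rank → Fˣ)
    (hc : ∀ j < D.rank, cartanMap D c j = 1) : c = 1 := by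
  classical
  let MP : Fin D.rank → Fin D.rank → ℤ := fun i j => matL P i j
  let MP' : Fin D.rank → Fin D.rank → ℤ := fun i j => matL P' i j
  let MQ : Fin D.rank → Fin D.rank → ℤ := fun i j => matL Q i j
  let A : Fin D.rank → Fin D.rank → ℤ := fun i j => D.cartan i (D.simple j)
  have h2 : mAct MP (mAct MP' c) = c := by
    rw [mAct_mAct]
    have : (fun k j : Fin D.rank => ∑ i, MP' k i * MP i j) = fun k j : Fin D.rank => if k = j then (1 : ℤ) else 0 := by
      funext k j
      have h4 := hS.p'p k k.2 j j.2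
      rw [fin_sum_of_mulL] at h4
      simp only [MP, MP']
      rw [h4]
      simp [Fin.ext_iff]
    rw [this, mAct_id]
  have hmain : ∀ x : Fin D.rank → Fˣ, mAct MQ (mAct A (mAct MP x)) = x := by
    intro x
    rw [mAct_mAct A MP, mAct_mAct MQ]
    have : (fun k j : Fin D.rank => ∑ i, (∑ i', MP k i' * A i' i) * MQ i j) =
        fun k j : Fin D.rank => if k = j then (1 : ℤ) else 0 := by
      funext k j
      have h4 := hS.main k k.2 j j.2
      rw [fin_sum_of_mulL] at h4
      simp only [fin_sum_of_mulL] at h4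
      simp only [MP, MQ, A]
      rw [h4]
      by_cases hkj : k = j
      · subst hkj
        simp [hδ k k.2]
      · have : (k : ℕ) ≠ j := fun e => hkj (Fin.ext e)
        simp [hkj, this]
    rw [this, mAct_id]
  have h3 : mAct A c = 1 := by
    funext j
    exact hc j j.2
  have h4 := hmain (mAct MP' c)
  rw [h2, h3, mAct_one_right] at h4
  rw [← h2, ← h4, mAct_one_right]

/-- Every involution is conjugate to one of the given elements of the torus. -/
theorem inv_conj_rep [Fintype F] (hodd : Odd (Fintype.card F))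
    (htor : ∀ c : Fin D.rank → Fˣ, (∀ j < D.rank, cartanMap D c j = 1) → c = 1)
    (hpair : ∀ a b : Fin D.rank, a ≠ b →
      Odd (D.cartan a (D.simple b)) ∨ Odd (D.cartan b (D.simple a)) ∨ OrthP X D a b)
    {W : List (List ℕ)} {reps : List ℕ}
    (hW : ∀ n < 2 ^ D.rank, n ≠ 0 → (∀ i ∈ nthL [] W n, i < D.rank) ∧ runW D (nthL [] W n) n ∈ reps)
    {t : GL D.Idx F} (ht : t ∈ D.group F) (h2 : t * t = 1) (h1 : t ≠ 1) :
    ∃ r ∈ reps, ∃ g ∈ D.group F, g * t * g⁻¹ = tor R D (cM D F r) := by
  obtain ⟨g₁, hg₁, hd⟩ := hF.inv_conj_torus hodd htor hpair ht h2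
  obtain ⟨c, hc⟩ := (hF.mem_diagonal_iff).1 hd
  have hcc : c * c = 1 := by
    apply htor
    apply hF.cartanMap_of_tor_eq_one
    rw [← tor_mul, ← hc]
    calc g₁ * t * g₁⁻¹ * (g₁ * t * g₁⁻¹) = g₁ * (t * t) * g₁⁻¹ := by group
      _ = 1 := by rw [h2]; group
  obtain ⟨n, hn, rfl⟩ := hF.exists_cM hcc
  have hn0 : n ≠ 0 := by
    rintro rfl
    apply h1
    have h3 : cM D F 0 = 1 := by
      funext i
      simp [cM]
    rw [h3, tor_one] at hc
    have h4 : t = g₁⁻¹ * (g₁ * t * g₁⁻¹) * g₁ := by group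
    rw [h4, hc]
    group
  obtain ⟨h3, h4⟩ := hW n hn hn0
  obtain ⟨g₂, hg₂, e⟩ := hF.exists_conj_runW (F := F) _ h3 n
  refine ⟨_, h4, g₂ * g₁, Subgroup.mul_mem _ hg₂ hg₁, ?_⟩
  rw [← e, ← hc]
  group

/-- The character of a sign vector with a unique `-1` on the fundamental roots. -/
theorem chiT_of_cartanMap {c : Fin D.rank → Fˣ} {j : ℕ} (hj : j < D.rank)
    (hc : ∀ k < D.rank, cartanMap D c k = if k = j then -1 else 1) {s : ℕ} (hs : s < D.nroots) :
    chiT D c s = (-1 : Fˣ) ^ R.rcAt s j := by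
  rw [hF.chiT_eq_chr c hs]
  unfold chr
  rw [Finset.prod_eq_single j]
  · rw [hc j hj, if_pos rfl]
  · intro k hk hkj
    rw [hc k (Finset.mem_range.1 hk), if_neg hkj, _root_.one_zpow]
  · intro h
    exact absurd (Finset.mem_range.2 hj) h

/-- The count of the positive roots fixed. -/
theorem card_filter_chiT {c : Fin D.rank → Fˣ} {j : ℕ} (h1 : (-1 : Fˣ) ≠ 1)
    (hχ : ∀ s < D.nroots, chiT D c s = (-1 : Fˣ) ^ R.rcAt s j) :
    (open scoped Classical in ((Finset.range R.N).filter fun k => chiT D c (R.N + k) = 1).card) = cntEv R j R.N := by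
  classical
  have h2 := hF.two
  have key : ∀ m, m ≤ R.N → cntEv R j m = ((Finset.range m).filter fun k => chiT D c (R.N + k) = 1).card := by
    intro m hm
    induction m with
    | zero => simp [cntEv]
    | succ m ih =>
      rw [Finset.range_add_one, Finset.filter_insert]
      have h3 := ih (by omega)
      show Bool.rec (motive := fun _ => ℕ) (cntEv R j m) (Nat.succ (cntEv R j m))
        (intEvenB (R.rcAt (R.N + m) j)) = _
      rw [hχ _ (by omega)]
      by_cases h5 : Even (R.rcAt (R.N + m) j)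
      · rw [(intEvenB_iff _).2 h5, if_pos h5.neg_one_zpow, Finset.card_insert_of_notMem (by simp), h3]
      · have h6 : intEvenB (R.rcAt (R.N + m) j) = false := by
          cases h7 : intEvenB (R.rcAt (R.N + m) j) with
          | false => rfl
          | true => exact absurd ((intEvenB_iff _).1 h7) h5
        rw [h6, if_neg, h3]
        rw [(Int.not_even_iff_odd.1 h5).neg_one_zpow]
        exact h1
  exact (key _ le_rfl).symm

/-- The order of the centraliser, from the sum over the stabiliser. -/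
theorem card_cent_sumE [Fintype F] (hodd : Odd (Fintype.card F)) {Ls : List ℕ} {j : ℕ} (hj : j < D.rank)
    (hall : ∀ k < D.rank, k ∈ j :: Ls)
    {c : Fin D.rank → Fˣ} (hc : ∀ k < D.rank, cartanMap D c k = if k = j then -1 else 1) :
    Nat.card {g : GL D.Idx F // g ∈ D.group F ∧ tor R D c * g = g * tor R D c} =
      Fintype.card F ^ cntEv R j R.N * Nat.card (D.diagonalSubgroup F) *
        hF.sumE {x | x ∈ j :: Ls} j (Fintype.card F) := by
  classical
  have h1 : (-1 : Fˣ) ≠ 1 := by
    intro e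
    have h2 : (-1 : F) = 1 := by
      have := congrArg (fun x : Fˣ => (x : F)) e
      simpa using this
    have h3 : (2 : F) ≠ 0 := Ring.two_ne_zero (ringChar_ne_two_of_odd hodd)
    apply h3
    linear_combination -h2
  have hχ : ∀ s < D.nroots, chiT D c s = (-1 : Fˣ) ^ R.rcAt s j := fun s hs => hF.chiT_of_cartanMap hj hc hs
  have hone : ∀ s < D.nroots, chiT D c s = 1 ↔ Even (R.rcAt s j) := by
    intro s hs
    rw [hχ s hs]
    constructor
    · intro e
      by_contra h5
      rw [(Int.not_even_iff_odd.1 h5).neg_one_zpow] at e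
      exact h1 e
    · intro e
      exact e.neg_one_zpow
  have hsame : ∀ s t : Fin D.nroots, chiT D c s = chiT D c t ↔ (Even (R.rcAt s j) ↔ Even (R.rcAt t j)) := by
    intro s t
    rw [hχ s s.2, hχ t t.2]
    by_cases h5 : Even (R.rcAt s j) <;> by_cases h6 : Even (R.rcAt t j)
    · simp [h5.neg_one_zpow, h6.neg_one_zpow, h5, h6]
    · rw [h5.neg_one_zpow, (Int.not_even_iff_odd.1 h6).neg_one_zpow]
      simp [h5, h6, h1.symm]
    · rw [h6.neg_one_zpow, (Int.not_even_iff_odd.1 h5).neg_one_zpow]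
      simp [h5, h6, h1]
    · rw [(Int.not_even_iff_odd.1 h5).neg_one_zpow, (Int.not_even_iff_odd.1 h6).neg_one_zpow]
      simp [h5, h6]
  rw [hF.card_cent c, hF.card_fixU c, hF.card_filter_chiT h1 hχ]
  congr 1
  unfold sumE
  have hWW : hF.Wk {x | x ∈ j :: Ls} = hF.Wk Set.univ := by
    apply hF.Wk_congr
    intro k hk
    exact ⟨fun _ => Set.mem_univ _, fun _ => hall k hk⟩
  rw [hWW]
  have hP : (fun r : Fin D.nroots => chiT D c r = 1) = fun r : Fin D.nroots => Even (R.rcAt r j) := by
    funext r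
    exact propext (hone r r.2)
  rw [hP]
  apply Finset.sum_congr _ (fun _ _ => rfl)
  ext σ
  simp only [Finset.mem_filter, Finset.mem_univ, true_and]
  apply and_congr_right
  intro _
  exact forall_congr' (fun s => hsame (σ s) s)

/-- The order of the centraliser, from the tables. -/
theorem card_cent_tab [Fintype F] (hodd : Odd (Fintype.card F)) {Ls : List ℕ} {j : ℕ} {cmT : List (List ℤ)}
    {L : List (List ℤ)} {par : List (ℕ × ℕ)} {ds dsE : List ℕ} (hj : j < D.rank) (hjL : j ∉ Ls)
    (hall : ∀ k < D.rank, k ∈ j :: Ls) (hcm : checkCm D cmT = true)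
    (h : orbOK R D.rank j cmT (j :: Ls) L par ds = true) (hE : orbE R D.rank j L dsE = true)
    {c : Fin D.rank → Fˣ} (hc : ∀ k < D.rank, cartanMap D c k = if k = j then -1 else 1) :
    Nat.card {g : GL D.Idx F // g ∈ D.group F ∧ tor R D c * g = g * tor R D c} =
      Fintype.card F ^ cntEv R j R.N * Nat.card (D.diagonalSubgroup F) *
        ((dsE.map (fun e => Fintype.card F ^ e)).sum * hF.poin {x | x ∈ Ls} (Fintype.card F)) := by
  rw [hF.card_cent_sumE hodd hj hall hc, hF.sumE_of_orb hj hjL hcm h hE]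

end Full

/-- Conjugate elements have centralisers of the same order. -/
theorem card_centralizer_conj {G : Subgroup (GL D.Idx F)} (t : ↥G) {g z : GL D.Idx F} (hg : g ∈ G)
    (e : g * t.1 * g⁻¹ = z) :
    Nat.card (Subgroup.centralizer ({t} : Set ↥G)) = Nat.card {h : GL D.Idx F // h ∈ G ∧ z * h = h * z} := by
  refine Nat.card_congr ⟨fun x => ⟨g * x.1.1 * g⁻¹, Subgroup.mul_mem _ (Subgroup.mul_mem _ hg x.1.2) (Subgroup.inv_mem _ hg), ?_⟩,
    fun y => ⟨⟨g⁻¹ * y.1 * g, Subgroup.mul_mem _ (Subgroup.mul_mem _ (Subgroup.inv_mem _ hg) y.2.1) hg⟩, ?_⟩, ?_, ?_⟩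
  · have h1 : x.1 * t = t * x.1 := Subgroup.mem_centralizer_singleton_iff.1 x.2
    have h2 : x.1.1 * t.1 = t.1 * x.1.1 := congrArg Subtype.val h1
    rw [← e]
    calc g * t.1 * g⁻¹ * (g * x.1.1 * g⁻¹) = g * (t.1 * x.1.1) * g⁻¹ := by group
      _ = g * (x.1.1 * t.1) * g⁻¹ := by rw [h2]
      _ = _ := by group
  · rw [Subgroup.mem_centralizer_singleton_iff]
    apply Subtype.ext
    show g⁻¹ * y.1 * g * t.1 = t.1 * (g⁻¹ * y.1 * g)
    have h1 : t.1 = g⁻¹ * z * g := by
      rw [← e]
      group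
    have h2 := y.2.2
    rw [h1]
    calc g⁻¹ * y.1 * g * (g⁻¹ * z * g) = g⁻¹ * (y.1 * z) * g := by group
      _ = g⁻¹ * (z * y.1) * g := by rw [h2]
      _ = _ := by group
  · intro x
    apply Subtype.ext
    apply Subtype.ext
    show g⁻¹ * (g * x.1.1 * g⁻¹) * g = x.1.1
    group
  · intro y
    apply Subtype.ext
    show g * (g⁻¹ * y.1 * g) * g⁻¹ = y.1
    group

namespace Full

include hF

/-- Fundamental characters from the parity table. -/
theorem cartanMap_cM_of_par {r j : ℕ}
    (hrep : ∀ k < D.rank, (intEvenB (parN D r k D.rank) = true ↔ k ≠ j)) :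
    ∀ k < D.rank, cartanMap D (cM D F r) k = if k = j then -1 else 1 := by
  intro k hk
  have h1 : cartanMap D (cM D F r) k = chiT D (cM D F r) (D.simple k) := rfl
  rw [h1, chiT_cM]
  by_cases hkj : k = j
  · rw [if_pos hkj]
    have h2 : ¬ Even (parN D r k D.rank) := by
      intro h3
      exact ((hrep k hk).1 ((intEvenB_iff _).2 h3)) hkj
    exact (Int.not_even_iff_odd.1 h2).neg_one_zpow
  · rw [if_neg hkj]
    exact ((intEvenB_iff _).1 ((hrep k hk).2 hkj)).neg_one_zpow

end Full

/-- An element of order two. -/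
theorem mul_self_of_orderOf {G : Subgroup (GL D.Idx F)} {s : ↥G} (hs : orderOf s = 2) :
    s.1 * s.1 = 1 ∧ s.1 ≠ 1 := by
  constructor
  · have h1 := pow_orderOf_eq_one s
    rw [hs, pow_two] at h1
    exact congrArg Subtype.val h1
  · intro h1
    have h2 : s = 1 := Subtype.ext h1
    rw [h2, orderOf_one] at hs
    omega

namespace Full

include hF

/-- `tor (cM r)` is an involution of the group. -/
theorem tor_cM_sq (r : ℕ) : tor R D (cM D F r) * tor R D (cM D F r) = (1 : GL D.Idx F) := by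
  rw [tor_mul]
  have h1 : cM D F r * cM D F r = 1 := by
    funext i
    rw [Pi.mul_apply]
    unfold cM
    by_cases h : r.testBit i = true
    · simp [h]
    · simp [h]
  rw [h1, tor_one]

theorem tor_mem_group (c : Fin D.rank → Fˣ) : tor R D c ∈ D.group F :=
  hF.c.borel_le_group (hF.c.diagonal_le_borel (hF.tor_mem_diagonal c))

theorem tor_cM_ne_one (h1 : (-1 : Fˣ) ≠ 1) {r j : ℕ} (hj : j < D.rank)
    (hr : ∀ k < D.rank, cartanMap D (cM D F r) k = if k = j then -1 else 1) :
    tor R D (cM D F r) ≠ (1 : GL D.Idx F) := by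
  intro e
  have h2 := hF.cartanMap_of_tor_eq_one e j hj
  rw [hr j hj, if_pos rfl] at h2
  exact h1 h2

/-- The two classes. -/
theorem two_classes [Fintype F] (hodd : Odd (Fintype.card F))
    (htor : ∀ c : Fin D.rank → Fˣ, (∀ j < D.rank, cartanMap D c j = 1) → c = 1)
    (hpair : ∀ a b : Fin D.rank, a ≠ b →
      Odd (D.cartan a (D.simple b)) ∨ Odd (D.cartan b (D.simple a)) ∨ OrthP X D a b)
    {W : List (List ℕ)} {r₁ r₂ : ℕ}
    (hW : ∀ n < 2 ^ D.rank, n ≠ 0 → (∀ i ∈ nthL [] W n, i < D.rank) ∧ runW D (nthL [] W n) n ∈ [r₁, r₂])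
    {j₁ j₂ : ℕ} (hj₁ : j₁ < D.rank) (hj₂ : j₂ < D.rank)
    (hr₁ : ∀ k < D.rank, cartanMap D (cM D F r₁) k = if k = j₁ then -1 else 1)
    (hr₂ : ∀ k < D.rank, cartanMap D (cM D F r₂) k = if k = j₂ then -1 else 1) :
    ∃ s t : ↥(D.group F), orderOf s = 2 ∧ orderOf t = 2 ∧
      (∀ u : ↥(D.group F), orderOf u = 2 → IsConj u s ∨ IsConj u t) ∧
      s.1 = tor R D (cM D F r₁) ∧ t.1 = tor R D (cM D F r₂) := by
  have h1 : (-1 : Fˣ) ≠ 1 := by
    intro e
    have h2 : (-1 : F) = 1 := by
      have := congrArg (fun x : Fˣ => (x : F)) e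
      simpa using this
    have h3 : (2 : F) ≠ 0 := Ring.two_ne_zero (ringChar_ne_two_of_odd hodd)
    apply h3
    linear_combination -h2
  let s : ↥(D.group F) := ⟨_, hF.tor_mem_group (cM D F r₁)⟩
  let t : ↥(D.group F) := ⟨_, hF.tor_mem_group (cM D F r₂)⟩
  have hord : ∀ x : ↥(D.group F), x.1 * x.1 = 1 → x.1 ≠ 1 → orderOf x = 2 := by
    intro x h2 h3
    apply orderOf_eq_prime
    · rw [pow_two]
      exact Subtype.ext h2
    · intro h4
      exact h3 (congrArg Subtype.val h4)
  refine ⟨s, t, hord s (hF.tor_cM_sq r₁) (hF.tor_cM_ne_one h1 hj₁ hr₁),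
    hord t (hF.tor_cM_sq r₂) (hF.tor_cM_ne_one h1 hj₂ hr₂), ?_, rfl, rfl⟩
  intro u hu
  obtain ⟨h2, h3⟩ := mul_self_of_orderOf hu
  obtain ⟨r, hr, g, hg, e⟩ := hF.inv_conj_rep hodd htor hpair hW u.2 h2 h3
  have hconj : ∀ x : ↥(D.group F), x.1 = tor R D (cM D F r) → IsConj u x := by
    intro x hx
    rw [isConj_iff]
    exact ⟨⟨g, hg⟩, Subtype.ext (by rw [hx]; exact e)⟩
  rcases List.mem_cons.1 hr with hr | hr
  · exact Or.inl (hconj s (by rw [hr]))
  · have hr' : r = r₂ := by simpa using hr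
    exact Or.inr (hconj t (by rw [hr']))

end Full

/-- Conjugate elements have centralisers of the same order. -/
theorem card_centralizer_of_isConj {G : Subgroup (GL D.Idx F)} {s t : ↥G} (h : IsConj s t) :
    Nat.card (Subgroup.centralizer ({s} : Set ↥G)) = Nat.card (Subgroup.centralizer ({t} : Set ↥G)) := by
  obtain ⟨g, e⟩ := isConj_iff.1 h
  rw [card_centralizer_conj s g.2 (z := t.1) (congrArg Subtype.val e),
    card_centralizer_conj t (g := 1) (Subgroup.one_mem _) (z := t.1) (by simp)]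

/-- A subtype form of `card_centralizer_conj`, with no conjugation. -/
theorem card_centralizer_self {G : Subgroup (GL D.Idx F)} (t : ↥G) :
    Nat.card (Subgroup.centralizer ({t} : Set ↥G)) = Nat.card {h : GL D.Idx F // h ∈ G ∧ t.1 * h = h * t.1} :=
  card_centralizer_conj t (g := 1) (Subgroup.one_mem _) (by simp)

end Cfsg.Agent.Lib.Chev
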